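import Mathlib

/-!
Elementary tools for representations of groups with an alternating quotient: embeddings of small permutation groups,
independence of joint eigenvectors, decomposition under an operator of finite order, common eigenvectors.
-/

set_option autoImplicit false
set_option linter.unusedSectionVars false

open Module

namespace CfsgLib.Classes.AltSections

/-- The bound of the theorem. -/
def degBound (r p : ℕ) : ℕ := r - 1 - (if p ∣ r then 1 else 0)

section Perm

variable {m r : ℕ}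

/-- A permutation of few points, acting through an embedding. -/
noncomputable def phi (f : Fin m ↪ Fin r) : Equiv.Perm (Fin m) →* Equiv.Perm (Fin r) :=
  Equiv.Perm.viaEmbeddingHom f

theorem phi_apply (f : Fin m ↪ Fin r) (x : Equiv.Perm (Fin m)) (i : Fin m) : phi f x (f i) = f (x i) :=
  Equiv.Perm.viaEmbedding_apply x f i

theorem phi_apply_of_notMem (f : Fin m ↪ Fin r) (x : Equiv.Perm (Fin m)) {a : Fin r} (ha : a ∉ Set.range f) :
    phi f x a = a :=
  Equiv.Perm.viaEmbedding_apply_of_notMem x f a ha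

theorem sign_phi (f : Fin m ↪ Fin r) (x : Equiv.Perm (Fin m)) :
    Equiv.Perm.sign (phi f x) = Equiv.Perm.sign x := by
  rw [phi, Equiv.Perm.viaEmbeddingHom_apply, Equiv.Perm.viaEmbedding]
  exact @Equiv.Perm.sign_extendDomain _ _ _ _ _ _ x _ (Classical.decPred _) _

theorem conj_phi {f g : Fin m ↪ Fin r} {e : Equiv.Perm (Fin r)} (he : ∀ i, e (f i) = g i)
    (x : Equiv.Perm (Fin m)) : e * phi f x * e⁻¹ = phi g x := by
  rw [mul_inv_eq_iff_eq_mul]
  ext a
  congr 1
  simp only [Equiv.Perm.mul_apply]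
  by_cases ha : a ∈ Set.range f
  · obtain ⟨i, rfl⟩ := ha
    rw [phi_apply, he, he, phi_apply]
  · rw [phi_apply_of_notMem f x ha, phi_apply_of_notMem g x]
    rintro ⟨i, hi⟩
    exact ha ⟨i, e.injective ((he i).trans hi)⟩

theorem exists_even_map (f g : Fin m ↪ Fin r) (hm : m + 2 ≤ r) :
    ∃ e : Equiv.Perm (Fin r), Equiv.Perm.sign e = 1 ∧ ∀ i, e (f i) = g i := by
  classical
  obtain ⟨σ, hσ⟩ := Equiv.Perm.exists_extending_pair f g f.injective g.injective
  rcases Int.units_eq_one_or (Equiv.Perm.sign σ) with h | h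
  · exact ⟨σ, h, hσ⟩
  have hc : 2 ≤ ((Finset.univ.image g)ᶜ).card := by
    rw [Finset.card_compl, Finset.card_image_of_injective _ g.injective, Finset.card_univ, Fintype.card_fin,
      Fintype.card_fin]
    omega
  obtain ⟨a, ha, b, hb, hab⟩ := Finset.one_lt_card.1 hc
  refine ⟨Equiv.swap a b * σ, by rw [map_mul, Equiv.Perm.sign_swap hab, h]; rfl, fun i => ?_⟩
  rw [Equiv.Perm.mul_apply, hσ, Equiv.swap_apply_of_ne_of_ne]
  · exact fun e => Finset.mem_compl.1 ha (Finset.mem_image.2 ⟨i, Finset.mem_univ i, e⟩)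
  · exact fun e => Finset.mem_compl.1 hb (Finset.mem_image.2 ⟨i, Finset.mem_univ i, e⟩)

theorem exists_emb (f : Fin m → Fin r) (hf : Function.Injective f) : ∃ g : Fin m ↪ Fin r, ∀ i, g i = f i :=
  ⟨⟨f, hf⟩, fun _ => rfl⟩

end Perm

theorem no_small_action {G : Type*} [Group G] {r : ℕ} (hr : 5 ≤ r) (π : G →* alternatingGroup (Fin r))
    (hπ : Function.Surjective π) {ι : Type*} [Fintype ι] (hι : Fintype.card ι < r) (φ : G →* Equiv.Perm ι)
    (hker : φ.ker ≤ π.ker) : False := by
  classical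
  have : Nontrivial (Fin r) := Fin.nontrivial_iff_two_le.2 (by omega)
  have h1 : π.ker.index = r.factorial / 2 := by
    rw [Subgroup.index_ker, MonoidHom.range_eq_top.2 hπ, Subgroup.card_top, nat_card_alternatingGroup, Nat.card_fin]
  have h2 : φ.ker.index ∣ (r - 1).factorial := by
    refine Nat.dvd_trans ?_ (Nat.factorial_dvd_factorial (show Fintype.card ι ≤ r - 1 by omega))
    rw [Subgroup.index_ker, ← Fintype.card_perm, ← Nat.card_eq_fintype_card]
    exact Subgroup.card_subgroup_dvd_card _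
  have h3 := Nat.le_of_dvd (Nat.factorial_pos _) (h1 ▸ (Subgroup.index_dvd_of_le hker).trans h2)
  obtain ⟨s, rfl⟩ : ∃ s, r = s + 1 := ⟨r - 1, by omega⟩
  rw [Nat.add_sub_cancel, Nat.factorial_succ, Nat.div_le_iff_le_mul_add_pred two_pos] at h3
  have := Nat.factorial_pos s
  have := Nat.mul_le_mul_right s.factorial hr
  omega

section Eigen

variable {k V : Type*} [Field k] [AddCommGroup V] [Module k V]

theorem joint_indep {ι A : Type*} (f : A → End k V) (χ : ι → A → k) (hχ : ∀ i j, i ≠ j → ∃ a, χ i a ≠ χ j a)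
    (v : ι → V) (s : Finset ι) (hv : ∀ i ∈ s, ∀ a, f a (v i) = χ i a • v i) (hsum : ∑ i ∈ s, v i = 0) :
    ∀ i ∈ s, v i = 0 := by
  classical
  induction s using Finset.induction_on generalizing v with
  | empty => intro i hi; simp at hi
  | @insert j s hj ih =>
    rw [Finset.sum_insert hj] at hsum
    have h0 : ∀ i ∈ s, v i = 0 := by
      intro i hi
      obtain ⟨a, ha⟩ := hχ i j (fun e => hj (e ▸ hi))
      have h1 : ∀ l ∈ s, (χ l a - χ j a) • v l = 0 := by
        refine ih (fun l => (χ l a - χ j a) • v l) (fun l hl b => ?_) ?_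
        · rw [map_smul, hv l (Finset.mem_insert_of_mem hl), smul_comm]
        · have h := congrArg (f a) hsum
          rw [map_add, map_sum, hv j (Finset.mem_insert_self j s), map_zero] at h
          rw [eq_neg_of_add_eq_zero_left hsum] at h
          calc ∑ l ∈ s, (χ l a - χ j a) • v l
              = ∑ l ∈ s, f a (v l) - χ j a • ∑ l ∈ s, v l := by
                rw [Finset.smul_sum, ← Finset.sum_sub_distrib]
                exact Finset.sum_congr rfl fun l hl => by rw [hv l (Finset.mem_insert_of_mem hl), sub_smul]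
            _ = 0 := by rw [smul_neg, neg_add_eq_sub] at h; exact h
      exact (smul_eq_zero.1 (h1 i hi)).resolve_left (sub_ne_zero.2 ha)
    intro i hi
    rcases Finset.mem_insert.1 hi with rfl | hi
    · rwa [Finset.sum_eq_zero h0, add_zero] at hsum
    · exact h0 i hi

theorem sum_finrank_le_of_le [FiniteDimensional k V] {ι A : Type*} [Fintype ι] (f : A → End k V) (χ : ι → A → k)
    (hχ : ∀ i j, i ≠ j → ∃ a, χ i a ≠ χ j a) (W : ι → Submodule k V)
    (hW : ∀ i, ∀ v ∈ W i, ∀ a, f a v = χ i a • v) (U : Submodule k V) (hU : ∀ i, W i ≤ U) :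
    ∑ i, finrank k (W i) ≤ finrank k U := by
  classical
  let T : (∀ i, W i) →ₗ[k] U := ∑ i, (Submodule.inclusion (hU i)).comp (LinearMap.proj i)
  have hT : Function.Injective T := by
    rw [← LinearMap.ker_eq_bot, eq_bot_iff]
    intro x hx
    have h : ∑ i, (x i : V) = 0 := by
      have h' := congrArg Subtype.val hx
      simpa [T] using h'
    exact funext fun i => Subtype.ext
      (joint_indep f χ hχ (fun i => (x i : V)) Finset.univ (fun i _ => hW i _ (x i).2) h i (Finset.mem_univ i))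
  rw [← Module.finrank_pi_fintype k]
  exact LinearMap.finrank_le_finrank_of_injective hT

theorem sum_finrank_le [FiniteDimensional k V] {ι A : Type*} [Fintype ι] (f : A → End k V) (χ : ι → A → k)
    (hχ : ∀ i j, i ≠ j → ∃ a, χ i a ≠ χ j a) (W : ι → Submodule k V)
    (hW : ∀ i, ∀ v ∈ W i, ∀ a, f a v = χ i a • v) : ∑ i, finrank k (W i) ≤ finrank k V :=
  (sum_finrank_le_of_le f χ hχ W hW ⊤ fun _ => le_top).trans (Submodule.finrank_le _)

/-- The component of a vector in an eigenspace of an operator of finite order. -/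
noncomputable def eproj (x : End k V) (ℓ : ℕ) (μ : k) : End k V :=
  ((ℓ : k)⁻¹) • ∑ i ∈ Finset.range ℓ, (μ⁻¹) ^ i • x ^ i

theorem mul_eproj {x : End k V} {ℓ : ℕ} (hx : x ^ ℓ = 1) {μ : k} (hμ : μ ^ ℓ = 1) (hℓ : ℓ ≠ 0) :
    x * eproj x ℓ μ = μ • eproj x ℓ μ := by
  have hμ0 : μ ≠ 0 := by rintro rfl; rw [zero_pow hℓ] at hμ; exact zero_ne_one hμ
  rw [eproj, mul_smul_comm, smul_comm μ, Finset.mul_sum, Finset.smul_sum]
  congr 1
  obtain ⟨m, rfl⟩ := Nat.exists_eq_succ_of_ne_zero hℓ
  have h1 : ∀ i, x * ((μ⁻¹) ^ i • x ^ i) = μ • ((μ⁻¹) ^ (i + 1) • x ^ (i + 1)) := fun i => by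
    rw [mul_smul_comm, ← pow_succ', smul_smul, pow_succ' (μ⁻¹), ← mul_assoc, mul_inv_cancel₀ hμ0, one_mul]
  simp only [h1]
  rw [← Finset.smul_sum, ← Finset.smul_sum]
  congr 1
  conv_lhs => rw [Finset.sum_range_succ, show x ^ (m + 1) = 1 from hx, inv_pow, show μ ^ (m + 1) = 1 from hμ]
  conv_rhs => rw [Finset.sum_range_succ']
  simp

theorem sum_eproj {x : End k V} {ℓ : ℕ} (hℓ : (ℓ : k) ≠ 0) {ζ : k} (hζ : IsPrimitiveRoot ζ ℓ) :
    ∑ j ∈ Finset.range ℓ, eproj x ℓ (ζ ^ j) = 1 := by
  simp only [eproj]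
  rw [← Finset.smul_sum, Finset.sum_comm]
  simp only [← Finset.sum_smul, inv_pow, ← pow_mul]
  have hℓ0 : ℓ ≠ 0 := fun h => hℓ (by rw [h]; simp)
  have hsum : ∀ i ∈ Finset.range ℓ, i ≠ 0 → ∑ j ∈ Finset.range ℓ, (ζ ^ (j * i))⁻¹ = 0 := by
    intro i hi hi0
    have hne : (ζ ^ i)⁻¹ ≠ 1 := fun h => hζ.pow_ne_one_of_pos_of_lt hi0 (Finset.mem_range.1 hi) (inv_eq_one.1 h)
    have h1 : ((ζ ^ i)⁻¹) ^ ℓ = 1 := by rw [inv_pow, ← pow_mul, mul_comm, pow_mul, hζ.pow_eq_one, one_pow, inv_one]
    have h2 := geom_sum_mul ((ζ ^ i)⁻¹) ℓ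
    rw [h1, sub_self] at h2
    rw [← (mul_eq_zero.1 h2).resolve_right (sub_ne_zero.2 hne)]
    exact Finset.sum_congr rfl fun j _ => by rw [inv_pow, ← pow_mul, mul_comm i j]
  rw [Finset.sum_eq_single 0 (fun i hi hi0 => by rw [hsum i hi hi0, zero_smul])
    (fun h => absurd (Finset.mem_range.2 (Nat.pos_of_ne_zero hℓ0)) h)]
  simp [smul_smul, inv_mul_cancel₀ hℓ]

theorem commute_eproj {x y : End k V} (h : Commute y x) (ℓ : ℕ) (μ : k) : Commute y (eproj x ℓ μ) := by
  unfold eproj
  exact (Commute.sum_right _ _ _ fun i _ => (h.pow_right i).smul_right _).smul_right _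

/-- A nonzero subspace on which commuting operators act by scalars, invariant under their common centraliser. -/
theorem exists_common_eigen [IsAlgClosed k] [FiniteDimensional k V] [Nontrivial V] {ι : Type*} (f : ι → End k V)
    (hf : ∀ i j, Commute (f i) (f j)) (s : Finset ι) :
    ∃ (W : Submodule k V) (c : ι → k), W ≠ ⊥ ∧ (∀ i ∈ s, ∀ w ∈ W, f i w = c i • w) ∧
      ∀ g : End k V, (∀ i ∈ s, Commute g (f i)) → ∀ w ∈ W, g w ∈ W := by
  classical
  induction s using Finset.induction_on with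
  | empty => exact ⟨⊤, fun _ => 0, top_ne_bot, fun i hi => by simp at hi, fun g _ w _ => Submodule.mem_top⟩
  | @insert j s hj ih =>
    obtain ⟨W, c, hW, hc, hinv⟩ := ih
    have hjW : ∀ w ∈ W, f j w ∈ W := hinv (f j) fun i _ => hf j i
    have : Nontrivial W := Submodule.nontrivial_iff_ne_bot.2 hW
    obtain ⟨μ, hμ⟩ := Module.End.exists_eigenvalue ((f j).restrict hjW)
    obtain ⟨u, hu⟩ := hμ.exists_hasEigenvector
    refine ⟨W ⊓ Module.End.eigenspace (f j) μ, Function.update c j μ, ?_, ?_, ?_⟩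
    · intro hb
      refine hu.2 (Subtype.ext ((Submodule.mem_bot k).1 (hb ▸ Submodule.mem_inf.2 ⟨u.2, ?_⟩)))
      rw [Module.End.mem_eigenspace_iff]
      exact congrArg Subtype.val (Module.End.mem_eigenspace_iff.1 hu.1)
    · intro i hi w hw
      obtain ⟨hw1, hw2⟩ := Submodule.mem_inf.1 hw
      rcases Finset.mem_insert.1 hi with rfl | hi
      · rw [Function.update_self]
        exact Module.End.mem_eigenspace_iff.1 hw2
      · rw [Function.update_of_ne (fun e => hj (e ▸ hi) : i ≠ j)]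
        exact hc i hi w hw1
    · intro g hg w hw
      obtain ⟨hw1, hw2⟩ := Submodule.mem_inf.1 hw
      refine Submodule.mem_inf.2 ⟨hinv g (fun i hi => hg i (Finset.mem_insert_of_mem hi)) w hw1, ?_⟩
      rw [Module.End.mem_eigenspace_iff] at hw2 ⊢
      rw [← Module.End.mul_apply, ← (hg j (Finset.mem_insert_self j s)).eq, Module.End.mul_apply, hw2, map_smul]

end Eigen

end CfsgLib.Classes.AltSections
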