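import Mathlib
import Cfsg.Agent.Lib.Classes.AltSections.Basic

/-!
Irreducible projective representations of alternating groups, presented by a group of linear maps containing the
scalars, and the statement of the degree bound.
-/

set_option autoImplicit false

open Module

namespace CfsgLib.Classes.AltSections

/-- A group of linear maps with all scalars, whose quotient by the scalars is the alternating group, acting
irreducibly. -/
structure Cover (k V : Type) [Field k] [AddCommGroup V] [Module k V] (r : ℕ) where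
  H : Subgroup (End k V)ˣ
  π : H →* alternatingGroup (Fin r)
  surj : Function.Surjective π
  scalar_mem : ∀ u : kˣ, Units.map (algebraMap k (End k V)).toMonoidHom u ∈ H
  ker_iff : ∀ x : H, π x = 1 ↔ ∃ c : k, ((x : (End k V)ˣ) : End k V) = c • 1
  irred : ∀ W : Submodule k V, (∀ x : H, ∀ w ∈ W, ((x : (End k V)ˣ) : End k V) w ∈ W) → W = ⊥ ∨ W = ⊤
  core : ∃ G₀ : Subgroup H, Finite G₀ ∧ Function.Surjective (π.comp G₀.subtype)

/-- The degree bound for sections of finite linear groups. -/
def SectionBound (r : ℕ) : Prop :=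
  ∀ (p : ℕ), p.Prime → ∀ (k : Type) [Field k] [IsAlgClosed k] [CharP k p] (V : Type) [AddCommGroup V] [Module k V]
    [FiniteDimensional k V] (G : Type) [Group G] [Finite G] (π : G →* alternatingGroup (Fin r))
    (ρ : G →* (End k V)ˣ), Function.Surjective π → ρ.ker ≤ π.ker → degBound r p ≤ finrank k V

theorem exists_not_commute {r : ℕ} (hr : 5 ≤ r) : ∃ a b : alternatingGroup (Fin r), a * b ≠ b * a := by
  obtain ⟨x, y, hx, hy, hxy⟩ : ∃ x y : Equiv.Perm (Fin 5),
      Equiv.Perm.sign x = 1 ∧ Equiv.Perm.sign y = 1 ∧ x * y ≠ y * x :=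
    ⟨Equiv.swap 0 1 * Equiv.swap 1 2, Equiv.swap 0 1 * Equiv.swap 2 3, by decide, by decide, by decide⟩
  refine ⟨⟨phi (Fin.castLEEmb hr) x, ?_⟩, ⟨phi (Fin.castLEEmb hr) y, ?_⟩, fun e => hxy ?_⟩
  · rw [Equiv.Perm.mem_alternatingGroup, sign_phi, hx]
  · rw [Equiv.Perm.mem_alternatingGroup, sign_phi, hy]
  · apply Equiv.Perm.viaEmbeddingHom_injective (Fin.castLEEmb hr)
    rw [map_mul, map_mul]
    exact congrArg Subtype.val e

theorem degBound_le (r p : ℕ) : degBound r p ≤ r - 1 := by
  unfold degBound; omega

theorem le_degBound (r p : ℕ) : r - 2 ≤ degBound r p := by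
  unfold degBound; split <;> omega

end CfsgLib.Classes.AltSections
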