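import Mathlib
import Cfsg.Agent.Lib.Classes.AltSections.Def

/-!
Canonical lifts of cycles of odd prime length and their weight spaces in an irreducible projective representation
of an alternating group.
-/

set_option autoImplicit false
set_option linter.unusedSectionVars false

open Module

open Fin.NatCast

namespace CfsgLib.Classes.AltSections

theorem phi_swap {m r : ℕ} (f : Fin m ↪ Fin r) (i j : Fin m) :
    phi f (Equiv.swap i j) = Equiv.swap (f i) (f j) := by
  ext a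
  congr 1
  by_cases ha : a ∈ Set.range f
  · obtain ⟨l, rfl⟩ := ha
    rw [phi_apply, f.injective.map_swap]
  · rw [phi_apply_of_notMem f _ ha, Equiv.swap_apply_of_ne_of_ne]
    · rintro rfl; exact ha ⟨i, rfl⟩
    · rintro rfl; exact ha ⟨j, rfl⟩

theorem conj_phi_perm {m r : ℕ} (f : Fin m ↪ Fin r) (π x : Equiv.Perm (Fin m)) :
    phi (π.toEmbedding.trans f) x = phi f (π * x * π⁻¹) := by
  rw [map_mul, map_mul, map_inv, conj_phi (g := π.toEmbedding.trans f) (fun i => phi_apply f π i)]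

theorem exists_even_conj {m r : ℕ} (f : Fin m ↪ Fin r) (hm : m + 2 ≤ r) (π : Equiv.Perm (Fin m)) :
    ∃ e : Equiv.Perm (Fin r), Equiv.Perm.sign e = 1 ∧ ∀ x, e * phi f x * e⁻¹ = phi f (π * x * π⁻¹) := by
  obtain ⟨e, he, hmap⟩ := exists_even_map f (π.toEmbedding.trans f) hm
  exact ⟨e, he, fun x => by rw [conj_phi hmap, conj_phi_perm]⟩

/-- The standard three-cycle. -/
theorem finRotate_three : finRotate 3 = Equiv.swap 0 1 * Equiv.swap 1 2 := by decide

theorem exists_three_emb {r : ℕ} {u : Equiv.Perm (Fin r)} (hu : u.IsThreeCycle) :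
    ∃ f : Fin 3 ↪ Fin r, u = phi f (finRotate 3) := by
  obtain ⟨a, ha⟩ := hu.isCycle.nonempty_support
  have hnd := hu.nodup_iff_mem_support.2 ha
  have hinj : Function.Injective ![a, u a, u (u a)] := by
    simp only [List.nodup_cons, List.mem_cons, List.not_mem_nil, or_false, not_or, List.nodup_nil, and_true] at hnd
    obtain ⟨⟨h1, h2⟩, h3⟩ := hnd
    intro i j h
    fin_cases i <;> fin_cases j <;> simp_all [eq_comm]
  obtain ⟨f, hf⟩ := exists_emb _ hinj
  refine ⟨f, ?_⟩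
  rw [finRotate_three, map_mul, phi_swap, phi_swap, hf, hf, hf]
  exact hu.eq_swap_mul_swap_iff_mem_support.2 ha

namespace Cover

variable {k V : Type} [Field k] [AddCommGroup V] [Module k V] {r : ℕ} (C : Cover k V r)

/-- An element as a linear map. -/
def el (x : C.H) : End k V := ((x : (End k V)ˣ) : End k V)

/-- The permutation of an element. -/
def perm : C.H →* Equiv.Perm (Fin r) := (alternatingGroup (Fin r)).subtype.comp C.π

/-- A scalar as an element. -/
def sc : kˣ →* C.H :=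
  (Units.map (algebraMap k (End k V)).toMonoidHom).codRestrict C.H C.scalar_mem

theorem el_mul (x y : C.H) : C.el (x * y) = C.el x * C.el y := rfl

theorem el_one : C.el 1 = 1 := rfl

theorem el_pow (x : C.H) (s : ℕ) : C.el (x ^ s) = C.el x ^ s := by simp [el]

theorem el_injective : Function.Injective C.el := fun _ _ h => Subtype.ext (Units.ext h)

theorem el_sc (u : kˣ) : C.el (C.sc u) = (u : k) • 1 := Algebra.algebraMap_eq_smul_one _

theorem el_inv_apply (h : C.H) (v : V) : C.el h⁻¹ (C.el h v) = v := by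
  rw [← Module.End.mul_apply, ← el_mul, inv_mul_cancel]; rfl

theorem el_apply_inv (h : C.H) (v : V) : C.el h (C.el h⁻¹ v) = v := by
  rw [← Module.End.mul_apply, ← el_mul, mul_inv_cancel]; rfl

theorem sc_comm (u : kˣ) (x : C.H) : Commute (C.sc u) x := by
  apply C.el_injective
  rw [el_mul, el_mul, el_sc, smul_one_mul, mul_smul_one]

theorem sign_perm (x : C.H) : Equiv.Perm.sign (C.perm x) = 1 :=
  Equiv.Perm.mem_alternatingGroup.1 (C.π x).2

theorem exists_perm {σ : Equiv.Perm (Fin r)} (h : Equiv.Perm.sign σ = 1) : ∃ x : C.H, C.perm x = σ := by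
  obtain ⟨x, hx⟩ := C.surj ⟨σ, Equiv.Perm.mem_alternatingGroup.2 h⟩
  exact ⟨x, congrArg Subtype.val hx⟩

theorem perm_sc (u : kˣ) : C.perm (C.sc u) = 1 :=
  congrArg Subtype.val ((C.ker_iff (C.sc u)).2 ⟨u, C.el_sc u⟩)

theorem exists_sc [Nontrivial V] {x : C.H} (h : C.perm x = 1) : ∃ u : kˣ, x = C.sc u := by
  obtain ⟨c, hc⟩ := (C.ker_iff x).1 (Subtype.ext h)
  have hc0 : c ≠ 0 := by
    rintro rfl
    rw [zero_smul] at hc
    exact (x : (End k V)ˣ).ne_zero hc
  exact ⟨Units.mk0 c hc0, C.el_injective (by rw [el_sc]; exact hc)⟩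

theorem sc_injective [Nontrivial V] : Function.Injective C.sc := by
  intro a b h
  have h' := congrArg C.el h
  rw [el_sc, el_sc] at h'
  exact Units.ext (smul_left_injective k one_ne_zero h')

/-- An element of order dividing `ℓ` which is inverted. -/
def IsCan (ℓ : ℕ) (x : C.H) : Prop := x ^ ℓ = 1 ∧ ∃ g : C.H, g * x * g⁻¹ = x⁻¹

theorem IsCan.pow {C : Cover k V r} {ℓ : ℕ} {x : C.H} (h : C.IsCan ℓ x) (s : ℕ) : C.IsCan ℓ (x ^ s) := by
  obtain ⟨h1, g, hg⟩ := h
  exact ⟨by rw [← pow_mul, mul_comm, pow_mul, h1, one_pow], g, by rw [← conj_pow, hg, inv_pow]⟩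

theorem IsCan.conj {C : Cover k V r} {ℓ : ℕ} {x : C.H} (h : C.IsCan ℓ x) (y : C.H) : C.IsCan ℓ (y * x * y⁻¹) := by
  obtain ⟨h1, g, hg⟩ := h
  refine ⟨by rw [conj_pow, h1, mul_one, mul_inv_cancel], y * g * y⁻¹, ?_⟩
  rw [show y * g * y⁻¹ * (y * x * y⁻¹) * (y * g * y⁻¹)⁻¹ = y * (g * x * g⁻¹) * y⁻¹ by group, hg]
  group

theorem exists_sc_conj [Nontrivial V] {x h : C.H} (hc : Commute (C.perm h) (C.perm x)) :
    ∃ u : kˣ, h * x * h⁻¹ = C.sc u * x := by
  obtain ⟨u, hu⟩ := C.exists_sc (x := h * x * h⁻¹ * x⁻¹) (by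
    rw [map_mul, map_mul, map_mul, map_inv, map_inv, hc.eq, mul_inv_cancel_right, mul_inv_cancel])
  exact ⟨u, by rw [← hu, inv_mul_cancel_right]⟩

variable [Nontrivial V]

/-- An element commuting modulo scalars with an inverted element of odd prime order, and of order prime to it
modulo scalars, commutes with it. -/
theorem commute_of_pow {ℓ m : ℕ} {x y : C.H} (hx : x ^ ℓ = 1) (hy : C.perm (y ^ m) = 1) (hm : Nat.Coprime ℓ m)
    (hc : Commute (C.perm y) (C.perm x)) : Commute y x := by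
  obtain ⟨u, hu⟩ := C.exists_sc_conj hc
  have h1 : u ^ ℓ = 1 := by
    apply C.sc_injective
    rw [map_pow, map_one]
    have h := congrArg (· ^ ℓ) hu
    rw [conj_pow, hx, mul_one, mul_inv_cancel, (C.sc_comm u x).mul_pow, hx, mul_one] at h
    exact h.symm
  have hit : ∀ i : ℕ, y ^ i * x * (y ^ i)⁻¹ = C.sc (u ^ i) * x := by
    intro i
    induction i with
    | zero => simp
    | succ i ih =>
      rw [pow_succ', show y * y ^ i * x * (y * y ^ i)⁻¹ = y * (y ^ i * x * (y ^ i)⁻¹) * y⁻¹ by group, ih,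
        ← mul_assoc y, ← (C.sc_comm (u ^ i) y).eq, mul_assoc (C.sc _), mul_assoc (C.sc _), hu, pow_succ u, map_mul,
        mul_assoc]
  have h2 : u ^ m = 1 := by
    obtain ⟨w, hw⟩ := C.exists_sc hy
    apply C.sc_injective
    have h := hit m
    rw [hw, (C.sc_comm w x).eq, mul_inv_cancel_right] at h
    rw [map_one]
    exact (right_eq_mul.1 h)
  have hu1 : u = 1 := by
    rw [← orderOf_eq_one_iff, ← Nat.dvd_one, ← hm.gcd_eq_one]
    exact Nat.dvd_gcd (orderOf_dvd_of_pow_eq_one h1) (orderOf_dvd_of_pow_eq_one h2)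
  rw [hu1, map_one, one_mul, mul_inv_eq_iff_eq_mul] at hu
  exact hu

theorem commute_of_inverted {ℓ : ℕ} (hℓ : Odd ℓ) {x y e : C.H} (hx : x ^ ℓ = 1)
    (he : Commute (C.perm e) (C.perm x)) (hey : C.perm (e * y * e⁻¹) = C.perm y⁻¹)
    (hc : Commute (C.perm y) (C.perm x)) : Commute y x := by
  obtain ⟨u, hu⟩ := C.exists_sc_conj hc
  obtain ⟨v, hv⟩ := C.exists_sc_conj he
  have h1 : u ^ ℓ = 1 := by
    apply C.sc_injective
    rw [map_pow, map_one]
    have h := congrArg (· ^ ℓ) hu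
    rw [conj_pow, hx, mul_one, mul_inv_cancel, (C.sc_comm u x).mul_pow, hx, mul_one] at h
    exact h.symm
  obtain ⟨w, hw⟩ := C.exists_sc (x := e * y * e⁻¹ * y) (by rw [map_mul, hey, map_inv, inv_mul_cancel])
  have hconj : ∀ (a : kˣ) (g z : C.H), g * (C.sc a * z) * g⁻¹ = C.sc a * (g * z * g⁻¹) := fun a g z => by
    rw [← mul_assoc g, ← (C.sc_comm a g).eq]; group
  have h2 : u * u = 1 := by
    have hyi : y⁻¹ * x * y = C.sc u⁻¹ * x := by
      have h := congrArg (fun z => y⁻¹ * (C.sc u⁻¹ * z) * y⁻¹⁻¹) hu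
      simp only [hconj, ← mul_assoc (C.sc u⁻¹) (C.sc u), ← map_mul, inv_mul_cancel, map_one, one_mul] at h
      rw [show y⁻¹ * x * y = y⁻¹ * x * y⁻¹⁻¹ by group, ← h]
      group
    have e1 : e * y * e⁻¹ = C.sc w * y⁻¹ := by rw [← hw, mul_inv_cancel_right]
    have h3 : e * (y * x * y⁻¹) * e⁻¹ = C.sc u * (C.sc v * x) := by rw [hu, hconj, hv]
    have h4 : e * (y * x * y⁻¹) * e⁻¹ = C.sc v * (C.sc u⁻¹ * x) := by
      rw [show e * (y * x * y⁻¹) * e⁻¹ = (e * y * e⁻¹) * (e * x * e⁻¹) * (e * y * e⁻¹)⁻¹ by group, e1, hv, hconj,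
        ← hyi, show C.sc w * y⁻¹ * x * (C.sc w * y⁻¹)⁻¹ = C.sc w * (y⁻¹ * x * y) * (C.sc w)⁻¹ by group,
        (C.sc_comm w _).eq, mul_inv_cancel_right]
    have h5 := h3.symm.trans h4
    rw [← mul_assoc, ← mul_assoc, ← map_mul, ← map_mul, mul_left_inj, mul_comm v] at h5
    exact mul_eq_one_iff_eq_inv.2 (mul_right_cancel (C.sc_injective h5))
  have hu1 : u = 1 := by
    obtain ⟨t, rfl⟩ := hℓ
    rwa [pow_succ, pow_mul, pow_two, h2, one_pow, one_mul] at h1
  rw [hu1, map_one, one_mul, mul_inv_eq_iff_eq_mul] at hu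
  exact hu

/-- The centraliser of a cycle centralises an inverted lift. -/
theorem commute_of_commute_perm (hr : 9 ≤ r) {ℓ : ℕ} [hℓ : Fact ℓ.Prime] (hodd : Odd ℓ) (hℓr : ℓ + 2 ≤ r)
    (f : Fin ℓ ↪ Fin r) {x : C.H} (hx : C.IsCan ℓ x) (hp : C.perm x = phi f (finRotate ℓ)) {h : C.H}
    (hh : Commute (C.perm h) (C.perm x)) : Commute h x := by
  classical
  obtain ⟨n, rfl⟩ : ∃ n, ℓ = n + 1 := ⟨ℓ - 1, by have := hℓ.out.pos; omega⟩
  have hcomm : ∀ j : Fin (n + 1), C.perm h (f (j + 1)) = C.perm x (C.perm h (f j)) := fun j => by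
    rw [← Equiv.Perm.mul_apply (C.perm x), ← hh.eq, Equiv.Perm.mul_apply, hp, phi_apply, finRotate_apply]
  have hmem : C.perm h (f 0) ∈ Set.range f := by
    by_contra hc
    have h1 : f (0 + 1) = f 0 := (C.perm h).injective
      ((hcomm 0).trans (by rw [hp, phi_apply_of_notMem f _ hc]))
    have := f.injective h1
    rw [zero_add, Fin.one_eq_zero_iff] at this
    exact hℓ.out.ne_one (by omega)
  obtain ⟨i, hi⟩ := hmem
  have hpow : ∀ (s : ℕ) (j : Fin (n + 1)), (C.perm x ^ s) (f j) = f (j + (s : Fin (n + 1))) := by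
    intro s
    induction s with
    | zero => intro j; simp
    | succ s ih =>
      intro j
      rw [pow_succ', Equiv.Perm.mul_apply, ih, hp, phi_apply, finRotate_apply, Nat.cast_succ, add_assoc]
  let g : C.H := (x ^ i.val)⁻¹ * h
  have hgx : Commute (C.perm g) (C.perm x) := by
    rw [map_mul, map_inv, map_pow]
    exact ((Commute.refl (C.perm x)).pow_left i.val).inv_left.mul_left hh
  have hfixj : ∀ j : Fin (n + 1), C.perm g (f j) = f j := by
    have hhj : ∀ s : ℕ, C.perm h (f (s : Fin (n + 1))) = f ((s : Fin (n + 1)) + i) := by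
      intro s
      induction s with
      | zero => simpa using hi.symm
      | succ s ih =>
        rw [Nat.cast_succ, hcomm, ih, hp, phi_apply, finRotate_apply, add_right_comm]
    intro j
    rw [map_mul, map_inv, map_pow, Equiv.Perm.mul_apply, Equiv.Perm.inv_eq_iff_eq, hpow, Fin.cast_val_eq_self]
    simpa [Fin.cast_val_eq_self] using hhj j.val
  suffices hg : Commute g x by
    have := ((Commute.refl x).pow_left i.val).mul_left hg
    simpa [g] using this
  -- permutations of the complement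
  let P : Fin r → Prop := fun a => a ∉ Set.range f
  let S : Subgroup (Equiv.Perm (Fin r)) := (Subgroup.centralizer {x}).map C.perm
  have hS : ∀ u : Equiv.Perm {a // P a}, u.IsThreeCycle → Equiv.Perm.ofSubtype u ∈ S := by
    intro u hu
    set u' := Equiv.Perm.ofSubtype u with hu'
    have hu3 : u'.IsThreeCycle := by
      unfold Equiv.Perm.IsThreeCycle
      rw [hu', Equiv.Perm.cycleType_ofSubtype]
      exact hu
    obtain ⟨y, hy⟩ := C.exists_perm (σ := u') hu3.sign
    have hdis : ∀ j, u' (f j) = f j := fun j =>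
      Equiv.Perm.ofSubtype_apply_of_not_mem u (fun h => h ⟨j, rfl⟩)
    have hcu : Commute u' (C.perm x) := by
      refine Equiv.ext fun a => ?_
      simp only [Equiv.Perm.mul_apply, hp]
      by_cases ha : a ∈ Set.range f
      · obtain ⟨j, rfl⟩ := ha
        rw [hdis, phi_apply, hdis]
      · rw [phi_apply_of_notMem f _ ha, phi_apply_of_notMem f _ (fun ⟨j, hj⟩ => ha
          ⟨j, u'.injective ((hdis j).trans hj)⟩)]
    refine ⟨y, Subgroup.mem_centralizer_iff.2 ?_, hy⟩
    intro z hz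
    rw [Set.mem_singleton_iff.1 hz]
    symm
    have hcx : Commute (C.perm y) (C.perm x) := by rw [hy]; exact hcu
    by_cases h3 : n + 1 = 3
    · -- inverting the three cycle
      obtain ⟨f3, hf3⟩ := exists_three_emb hu3
      have hm : ∀ j, f j ∉ Set.range f3 := by
        rintro j ⟨l, hl⟩
        have h1 := hdis j
        rw [hf3, ← hl, phi_apply] at h1
        exact (by decide : ∀ i : Fin 3, finRotate 3 i ≠ i) l (f3.injective h1)
      have hc : 2 ≤ ((Finset.univ.image f) ∪ (Finset.univ.image f3))ᶜ.card := by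
        rw [Finset.card_compl, Fintype.card_fin]
        have := Finset.card_union_le (Finset.univ.image f) (Finset.univ.image f3)
        rw [Finset.card_image_of_injective _ f.injective, Finset.card_image_of_injective _ f3.injective,
          Finset.card_univ, Finset.card_univ, Fintype.card_fin, Fintype.card_fin] at this
        omega
      obtain ⟨a, ha, b, hb, hab⟩ := Finset.one_lt_card.1 hc
      simp only [Finset.mem_compl, Finset.mem_union, Finset.mem_image, Finset.mem_univ, true_and, not_or] at ha hb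
      set e := phi f3 (Equiv.swap 1 2) * Equiv.swap a b with he
      obtain ⟨E, hE⟩ := C.exists_perm (σ := e) (by
        rw [he, map_mul, sign_phi, Equiv.Perm.sign_swap hab, Equiv.Perm.sign_swap (by decide)]; rfl)
      have hef : ∀ j, e (f j) = f j := fun j => by
        rw [he, Equiv.Perm.mul_apply, Equiv.swap_apply_of_ne_of_ne (fun h => ha.1 ⟨j, h⟩) (fun h => hb.1 ⟨j, h⟩),
          phi_apply_of_notMem f3 _ (hm j)]
      have hfa : ∀ i, Equiv.swap a b (f3 i) = f3 i := fun i =>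
        Equiv.swap_apply_of_ne_of_ne (fun h => ha.2 ⟨i, h⟩) (fun h => hb.2 ⟨i, h⟩)
      refine C.commute_of_inverted hodd hx.1 (e := E) ?_ ?_ hcx
      · rw [hE, hp]
        exact mul_inv_eq_iff_eq_mul.1 (conj_phi hef _)
      · rw [map_mul, map_mul, map_inv, map_inv, hy, hE, hf3, he,
          show phi f3 (Equiv.swap 1 2) * Equiv.swap a b * phi f3 (finRotate 3) *
            (phi f3 (Equiv.swap 1 2) * Equiv.swap a b)⁻¹ = phi f3 (Equiv.swap 1 2) *
              (Equiv.swap a b * phi f3 (finRotate 3) * (Equiv.swap a b)⁻¹) * (phi f3 (Equiv.swap 1 2))⁻¹ by group,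
          conj_phi (g := f3) hfa, ← map_inv, ← map_inv, ← map_mul, ← map_mul]
        exact congrArg (phi f3) (by decide)
    · refine C.commute_of_pow (m := 3) hx.1 ?_ ?_ hcx
      · rw [map_pow, hy, ← hu3.orderOf, pow_orderOf_eq_one]
      · exact (Nat.coprime_primes hℓ.out Nat.prime_three).2 h3
  have halt : alternatingGroup {a // P a} ≤ S.comap Equiv.Perm.ofSubtype := by
    rw [← Equiv.Perm.closure_three_cycles_eq_alternating, Subgroup.closure_le]
    exact hS
  have hpres : ∀ a, P (C.perm g a) ↔ P a := by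
    intro a
    refine not_congr ⟨?_, ?_⟩
    · rintro ⟨j, hj⟩
      exact ⟨j, (C.perm g).injective ((hfixj j).trans hj)⟩
    · rintro ⟨j, rfl⟩
      exact ⟨j, (hfixj j).symm⟩
  have hsub : Equiv.Perm.ofSubtype (Equiv.Perm.subtypePerm (C.perm g) hpres) = C.perm g :=
    Equiv.Perm.ofSubtype_subtypePerm hpres (fun a ha => fun ⟨j, hj⟩ => ha (hj ▸ hfixj j))
  have hev : Equiv.Perm.subtypePerm (C.perm g) hpres ∈ alternatingGroup {a // P a} := by
    rw [Equiv.Perm.mem_alternatingGroup, ← Equiv.Perm.sign_ofSubtype, hsub, C.sign_perm]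
  obtain ⟨z, hz, hzg⟩ := halt hev
  rw [hsub] at hzg
  obtain ⟨w, hw⟩ := C.exists_sc (x := g * z⁻¹) (by rw [map_mul, map_inv, hzg, mul_inv_cancel])
  rw [show g = g * z⁻¹ * z by group, hw]
  exact (C.sc_comm w x).mul_left ((Subgroup.mem_centralizer_iff.1 hz x rfl).symm)

/-- The inverted lift of a cycle is unique. -/
theorem IsCan.eq {ℓ : ℕ} [Fact ℓ.Prime] (hr : 9 ≤ r) (hodd : Odd ℓ) (hℓr : ℓ + 2 ≤ r) {f : Fin ℓ ↪ Fin r}
    {x y : C.H} (hx : C.IsCan ℓ x) (hy : C.IsCan ℓ y) (hpx : C.perm x = phi f (finRotate ℓ))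
    (hp : C.perm y = C.perm x) : y = x := by
  obtain ⟨gx, hgx⟩ := hx.2
  obtain ⟨gy, hgy⟩ := hy.2
  obtain ⟨u, hu⟩ := C.exists_sc (x := y * x⁻¹) (by rw [map_mul, map_inv, hp, mul_inv_cancel])
  have hyu : y = C.sc u * x := by rw [← hu, inv_mul_cancel_right]
  have hcm : Commute (gx⁻¹ * gy) x := by
    refine C.commute_of_commute_perm hr hodd hℓr f hx hpx ?_
    have h1 := congrArg C.perm hgx
    have h2 := congrArg C.perm hgy
    simp only [map_mul, map_inv, hp] at h1 h2
    rw [← h1] at h2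
    rw [map_mul, map_inv]
    refine mul_inv_eq_iff_eq_mul.1 ?_
    calc (C.perm gx)⁻¹ * C.perm gy * C.perm x * ((C.perm gx)⁻¹ * C.perm gy)⁻¹
        = (C.perm gx)⁻¹ * (C.perm gy * C.perm x * (C.perm gy)⁻¹) * C.perm gx := by group
      _ = C.perm x := by rw [h2]; group
  have h3 : gy * x * gy⁻¹ = x⁻¹ := by
    rw [← hgx, show gy * x * gy⁻¹ = gx * ((gx⁻¹ * gy) * x * (gx⁻¹ * gy)⁻¹) * gx⁻¹ by group, hcm.eq,
      mul_inv_cancel_right]
  have h4 : C.sc u * x⁻¹ = C.sc u⁻¹ * x⁻¹ := by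
    have h := hgy
    rw [hyu, ← mul_assoc gy, ← (C.sc_comm u gy).eq,
      show C.sc u * gy * x * gy⁻¹ = C.sc u * (gy * x * gy⁻¹) by group, h3, _root_.mul_inv_rev, ← map_inv,
      ← (C.sc_comm u⁻¹ x⁻¹).eq] at h
    exact h
  have h5 : u * u = 1 := mul_eq_one_iff_eq_inv.2 (C.sc_injective (mul_right_cancel h4))
  have h6 : u ^ ℓ = 1 := by
    apply C.sc_injective
    rw [map_pow, map_one]
    have h := hy.1
    rwa [hyu, (C.sc_comm u x).mul_pow, hx.1, mul_one] at h
  obtain ⟨t, rfl⟩ := hodd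
  rw [pow_succ, pow_mul, pow_two, h5, one_pow, one_mul] at h6
  rw [hyu, h6, map_one, one_mul]

variable [IsAlgClosed k]

theorem exists_can {ℓ : ℕ} (hodd : Odd ℓ) (hℓr : ℓ + 2 ≤ r) (f : Fin ℓ ↪ Fin r) :
    ∃ x : C.H, C.IsCan ℓ x ∧ C.perm x = phi f (finRotate ℓ) := by
  have hℓ0 : 0 < ℓ := hodd.pos
  have hsign : Equiv.Perm.sign (phi f (finRotate ℓ)) = 1 := by
    obtain ⟨t, rfl⟩ := hodd
    rw [sign_phi, sign_finRotate, Nat.add_sub_cancel, pow_mul, neg_one_sq, one_pow]
  have hrot : finRotate ℓ ^ ℓ = 1 := by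
    obtain ⟨t, rfl⟩ := hodd
    rcases Nat.eq_zero_or_pos t with rfl | ht
    · exact Equiv.ext fun i => Subsingleton.elim (α := Fin 1) _ _
    · have h := pow_orderOf_eq_one (finRotate (2 * t + 1))
      rwa [(isCycle_finRotate_of_le (by omega)).orderOf, support_finRotate_of_le (by omega), Finset.card_univ,
        Fintype.card_fin] at h
  obtain ⟨y, hy⟩ := C.exists_perm hsign
  obtain ⟨a, ha⟩ := C.exists_sc (x := y ^ ℓ) (by rw [map_pow, hy, ← map_pow, hrot, map_one])
  obtain ⟨b, hb⟩ := IsAlgClosed.exists_pow_nat_eq ((a⁻¹ : kˣ) : k) hℓ0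
  have hb0 : b ≠ 0 := by
    rintro rfl
    rw [zero_pow hℓ0.ne'] at hb
    exact (a⁻¹).ne_zero hb.symm
  let bu := Units.mk0 b hb0
  have hbu : bu ^ ℓ = a⁻¹ := Units.ext (by rw [Units.val_pow_eq_pow_val]; exact hb)
  set x₀ := C.sc bu * y with hx₀
  have hx0 : x₀ ^ ℓ = 1 := by rw [hx₀, (C.sc_comm bu y).mul_pow, ← map_pow, hbu, ha, ← map_mul, inv_mul_cancel, map_one]
  have hpx : C.perm x₀ = phi f (finRotate ℓ) := by rw [hx₀, map_mul, C.perm_sc, one_mul, hy]
  clear_value x₀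
  obtain ⟨n, rfl⟩ : ∃ n, ℓ = n + 1 := ⟨ℓ - 1, by omega⟩
  obtain ⟨e, he, hconj⟩ := exists_even_conj f hℓr (Equiv.neg (Fin (n + 1)))
  have hneg : Equiv.neg (Fin (n + 1)) * finRotate (n + 1) * (Equiv.neg (Fin (n + 1)))⁻¹ = (finRotate (n + 1))⁻¹ := by
    refine Equiv.ext fun i => ?_
    symm
    rw [Equiv.Perm.inv_eq_iff_eq, Equiv.Perm.mul_apply, Equiv.Perm.mul_apply, finRotate_apply, finRotate_apply]
    simp [Equiv.Perm.inv_def, add_comm]
  obtain ⟨g, hg⟩ := C.exists_perm he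
  have hpg : C.perm (g * x₀ * g⁻¹) = C.perm x₀⁻¹ := by
    rw [map_mul, map_mul, map_inv, map_inv, hg, hpx, hconj, hneg, map_inv]
  obtain ⟨m, hm⟩ := C.exists_sc (x := g * x₀ * g⁻¹ * x₀) (by rw [map_mul, hpg, map_inv, inv_mul_cancel])
  have hm' : g * x₀ * g⁻¹ = C.sc m * x₀⁻¹ := by rw [← hm, mul_inv_cancel_right]
  have hml : m ^ (n + 1) = 1 := by
    apply C.sc_injective
    rw [map_pow, map_one]
    have h := congrArg (· ^ (n + 1)) hm'
    rw [conj_pow, hx0, mul_one, mul_inv_cancel, (C.sc_comm m x₀⁻¹).mul_pow, inv_pow, hx0, inv_one, mul_one] at h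
    exact h.symm
  obtain ⟨s, hs⟩ := hodd
  have hν : m ^ s * m = (m ^ s)⁻¹ := by
    refine eq_inv_of_mul_eq_one_left ?_
    rw [← pow_succ, ← pow_add, show s + 1 + s = n + 1 by omega, hml]
  refine ⟨C.sc (m ^ s) * x₀, ⟨?_, g, ?_⟩, by rw [map_mul, C.perm_sc, one_mul, hpx]⟩
  · rw [(C.sc_comm _ _).mul_pow, hx0, mul_one, ← map_pow, ← pow_mul, mul_comm, pow_mul, hml, one_pow, map_one]
  · rw [← mul_assoc g, ← (C.sc_comm (m ^ s) g).eq, mul_assoc (C.sc _), mul_assoc (C.sc _), hm', ← mul_assoc,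
      ← map_mul, hν, map_inv, _root_.mul_inv_rev, ((C.sc_comm (m ^ s) x₀).inv_inv).eq]

end Cover

end CfsgLib.Classes.AltSections
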