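import Mathlib
import Cfsg.Agent.Lib.Classes.AltSections.Cover

/-!
Weight spaces of commuting canonical lifts, and subgroups supported on fewer points.
-/

set_option autoImplicit false
set_option linter.unusedSectionVars false

open Module

namespace CfsgLib.Classes.AltSections

theorem phi_trans {a b r : ℕ} (f : Fin a ↪ Fin b) (g : Fin b ↪ Fin r) (x : Equiv.Perm (Fin a)) :
    phi g (phi f x) = phi (f.trans g) x := by
  ext z
  congr 1
  by_cases hz : z ∈ Set.range g
  · obtain ⟨y, rfl⟩ := hz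
    rw [phi_apply]
    by_cases hy : y ∈ Set.range f
    · obtain ⟨i, rfl⟩ := hy
      rw [phi_apply]
      exact (phi_apply (f.trans g) x i).symm
    · rw [phi_apply_of_notMem f x hy, phi_apply_of_notMem (f.trans g) x]
      rintro ⟨i, hi⟩
      exact hy ⟨i, g.injective hi⟩
  · rw [phi_apply_of_notMem g _ hz, phi_apply_of_notMem (f.trans g) x]
    rintro ⟨i, hi⟩
    exact hz ⟨f i, hi⟩

theorem phi_eq_via {a b : ℕ} (f : Fin a ↪ Fin b) (x : Equiv.Perm (Fin a)) :
    phi f x = x.viaFintypeEmbedding f := by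
  ext z
  congr 1
  by_cases hz : z ∈ Set.range f
  · obtain ⟨y, rfl⟩ := hz
    rw [phi_apply, Equiv.Perm.viaFintypeEmbedding_apply_image]
  · rw [phi_apply_of_notMem f x hz, Equiv.Perm.viaFintypeEmbedding_apply_notMem_range x f hz]

theorem conj_phi_trans {m r a : ℕ} (F : Fin m ↪ Fin r) (b c : Fin a ↪ Fin m) (e : Equiv.Perm (Fin m)) (x : Equiv.Perm (Fin a))
    (s : ℕ) (h : e * x.viaFintypeEmbedding b * e⁻¹ = x.viaFintypeEmbedding c ^ s) :
    phi F e * phi (b.trans F) x * (phi F e)⁻¹ = phi (c.trans F) x ^ s := by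
  rw [← phi_trans, ← phi_trans, ← map_inv, ← map_mul, ← map_mul, ← map_pow, phi_eq_via b, phi_eq_via c, h]

theorem rot_ne_one {ℓ : ℕ} (h : 2 ≤ ℓ) : finRotate ℓ ≠ 1 :=
  (isCycle_finRotate_of_le h).ne_one

namespace Cover

variable {k V : Type} [Field k] [AddCommGroup V] [Module k V] {r : ℕ} (C : Cover k V r)

/-- The range of `x - 1`. -/
def moved (x : C.H) : Submodule k V := LinearMap.range (C.el x - 1)

/-- The fixed space. -/
def fixd (x : C.H) : Submodule k V := LinearMap.ker (C.el x - 1)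

theorem mem_fixd {x : C.H} {v : V} : v ∈ C.fixd x ↔ C.el x v = v := by
  rw [fixd, LinearMap.mem_ker, LinearMap.sub_apply, Module.End.one_apply, sub_eq_zero]

theorem mem_moved_of_eigen {x : C.H} {v : V} {μ : k} (hμ : μ ≠ 1) (h : C.el x v = μ • v) : v ∈ C.moved x := by
  refine ⟨(μ - 1)⁻¹ • v, ?_⟩
  rw [map_smul, LinearMap.sub_apply, Module.End.one_apply, h, ← one_smul k v, smul_smul μ, mul_one, ← sub_smul,
    smul_smul, inv_mul_cancel₀ (sub_ne_zero.2 hμ)]

theorem finrank_moved_add [FiniteDimensional k V] (x : C.H) :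
    finrank k (C.moved x) + finrank k (C.fixd x) = finrank k V :=
  LinearMap.finrank_range_add_finrank_ker _

theorem moved_inf_fixd {ℓ : ℕ} (hℓ : (ℓ : k) ≠ 0) {x : C.H} (hx : x ^ ℓ = 1) :
    ∀ v ∈ C.moved x, v ∈ C.fixd x → v = 0 := by
  rintro _ ⟨w, rfl⟩ hv
  rw [mem_fixd] at hv
  set v := (C.el x - 1) w with hvdef
  have h : ∀ i : ℕ, C.el (x ^ i) w = w + (i : k) • v := by
    intro i
    induction i with
    | zero => simp [el_one]
    | succ i ih =>
      rw [pow_succ', el_mul, Module.End.mul_apply, ih, map_add, map_smul, hv, Nat.cast_succ, add_smul, one_smul,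
        show C.el x w = w + v by rw [hvdef, LinearMap.sub_apply, Module.End.one_apply]; abel]
      abel
  have h' := h ℓ
  rw [hx, el_one, Module.End.one_apply, left_eq_add, smul_eq_zero] at h'
  exact h'.resolve_left hℓ

theorem moved_ne_bot [Nontrivial V] {x : C.H} (hx : C.perm x ≠ 1) : C.moved x ≠ ⊥ := by
  intro h
  refine hx ?_
  have h1 : x = 1 := C.el_injective (by rw [el_one]; exact sub_eq_zero.1 (LinearMap.range_eq_bot.1 h))
  rw [h1, map_one]

theorem mul_sub_one_comm {x y : C.H} (h : Commute x y) :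
    (C.el x - 1) * (C.el y - 1) = (C.el y - 1) * (C.el x - 1) := by
  have h' := congrArg C.el h.eq
  rw [el_mul, el_mul] at h'
  simp only [sub_mul, mul_sub, mul_one, one_mul, h']
  abel

theorem moved_le_fixd {x y : C.H} (h : (C.el y - 1) * (C.el x - 1) = 0) : C.moved x ≤ C.fixd y := by
  rintro _ ⟨w, rfl⟩
  exact LinearMap.congr_fun h w

theorem fixd_invariant {x h : C.H} (hc : Commute h x) : ∀ v ∈ C.fixd x, C.el h v ∈ C.fixd x := by
  intro v hv
  rw [mem_fixd] at hv ⊢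
  rw [← Module.End.mul_apply, ← el_mul, ← hc.eq, el_mul, Module.End.mul_apply, hv]

theorem moved_invariant {x h : C.H} (hc : Commute h x) : ∀ v ∈ C.moved x, C.el h v ∈ C.moved x := by
  rintro _ ⟨w, rfl⟩
  refine ⟨C.el h w, ?_⟩
  simp only [LinearMap.sub_apply, Module.End.one_apply, map_sub, ← Module.End.mul_apply, ← el_mul, hc.eq, one_mul]

theorem map_moved (x h : C.H) : (C.moved x).map (C.el h) = C.moved (h * x * h⁻¹) := by
  apply le_antisymm
  · rintro _ ⟨_, ⟨w, rfl⟩, rfl⟩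
    refine ⟨C.el h w, ?_⟩
    simp only [LinearMap.sub_apply, Module.End.one_apply, el_mul, Module.End.mul_apply, el_inv_apply, map_sub]
  · rintro _ ⟨w, rfl⟩
    refine ⟨(C.el x - 1) (C.el h⁻¹ w), ⟨_, rfl⟩, ?_⟩
    simp only [LinearMap.sub_apply, Module.End.one_apply, el_mul, Module.End.mul_apply, el_apply_inv, map_sub]

theorem el_bijective (h : C.H) : Function.Bijective (C.el h) :=
  ⟨fun a b e => by rw [← C.el_inv_apply h a, e, el_inv_apply], fun v => ⟨_, C.el_apply_inv h v⟩⟩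

theorem finrank_moved_conj (x h : C.H) : finrank k (C.moved (h * x * h⁻¹)) = finrank k (C.moved x) := by
  rw [← map_moved]
  exact ((Submodule.equivMapOfInjective _ (C.el_bijective h).1 _).finrank_eq).symm

/-- The canonical lift of a cycle. -/
noncomputable def cyc {ℓ : ℕ} (f : Fin ℓ ↪ Fin r) : C.H :=
  open Classical in
  if h : ∃ x : C.H, C.IsCan ℓ x ∧ C.perm x = phi f (finRotate ℓ) then h.choose else 1

variable [Nontrivial V] [IsAlgClosed k]

theorem cyc_spec {ℓ : ℕ} (hodd : Odd ℓ) (hℓr : ℓ + 2 ≤ r) (f : Fin ℓ ↪ Fin r) :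
    C.IsCan ℓ (C.cyc f) ∧ C.perm (C.cyc f) = phi f (finRotate ℓ) := by
  rw [cyc, dif_pos (C.exists_can hodd hℓr f)]
  exact (C.exists_can hodd hℓr f).choose_spec

variable (hr : 9 ≤ r) {ℓ : ℕ} [hℓ : Fact ℓ.Prime] (hodd : Odd ℓ) (hℓr : ℓ + 2 ≤ r)

include hr hodd hℓr

theorem cyc_commute (f : Fin ℓ ↪ Fin r) {h : C.H} (hc : Commute (C.perm h) (phi f (finRotate ℓ))) :
    Commute h (C.cyc f) :=
  C.commute_of_commute_perm hr hodd hℓr f (C.cyc_spec hodd hℓr f).1 (C.cyc_spec hodd hℓr f).2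
    (by rw [(C.cyc_spec hodd hℓr f).2]; exact hc)

theorem cyc_conj {f g : Fin ℓ ↪ Fin r} {h : C.H} {s : ℕ}
    (he : C.perm h * phi f (finRotate ℓ) * (C.perm h)⁻¹ = phi g (finRotate ℓ) ^ s) :
    h * C.cyc f * h⁻¹ = C.cyc g ^ s := by
  obtain ⟨hf, hpf⟩ := C.cyc_spec hodd hℓr f
  obtain ⟨hg, hpg⟩ := C.cyc_spec hodd hℓr g
  have h1 : C.perm (h * C.cyc f * h⁻¹) = phi (f.trans (C.perm h).toEmbedding) (finRotate ℓ) := by
    rw [map_mul, map_mul, map_inv, hpf]
    exact conj_phi (fun i => rfl) _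
  exact (IsCan.eq C hr hodd hℓr (hf.conj h) (hg.pow s) h1
    (by rw [map_pow, hpg, ← he, map_mul, map_mul, map_inv, hpf])).symm

theorem perm_cyc_ne_one (f : Fin ℓ ↪ Fin r) : C.perm (C.cyc f) ≠ 1 := by
  rw [(C.cyc_spec hodd hℓr f).2]
  intro h
  exact rot_ne_one hℓ.out.two_le (Equiv.Perm.viaEmbeddingHom_injective f (h.trans (map_one _).symm))

omit hr hodd hℓr

/-- A joint eigenspace. -/
def wt {s ℓ : ℕ} (xs : Fin s → C.H) (ζ : k) (w : Fin s → ZMod ℓ) : Submodule k V :=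
  ⨅ i, Module.End.eigenspace (C.el (xs i)) (ζ ^ (w i).val)

theorem mem_wt {s ℓ : ℕ} {xs : Fin s → C.H} {ζ : k} {w : Fin s → ZMod ℓ} {v : V} :
    v ∈ C.wt xs ζ w ↔ ∀ i, C.el (xs i) v = ζ ^ (w i).val • v := by
  simp [wt, Submodule.mem_iInf]

theorem pow_val_injective {ℓ : ℕ} [NeZero ℓ] {ζ : k} (hζ : IsPrimitiveRoot ζ ℓ) {a b : ZMod ℓ}
    (h : ζ ^ a.val = ζ ^ b.val) : a = b :=
  ZMod.val_injective ℓ (hζ.pow_inj a.val_lt b.val_lt h)

theorem sum_wt_le [FiniteDimensional k V] {s ℓ : ℕ} [NeZero ℓ] (xs : Fin s → C.H) {ζ : k}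
    (hζ : IsPrimitiveRoot ζ ℓ) (S : Finset (Fin s → ZMod ℓ)) (U : Submodule k V)
    (hU : ∀ w ∈ S, C.wt xs ζ w ≤ U) : ∑ w ∈ S, finrank k (C.wt xs ζ w) ≤ finrank k U := by
  rw [← Finset.sum_coe_sort]
  refine sum_finrank_le_of_le (fun i => C.el (xs i)) (fun (w : S) i => ζ ^ (w.1 i).val) ?_
    (fun w : S => C.wt xs ζ w.1) (fun w v hv i => C.mem_wt.1 hv i) U (fun w => hU w.1 w.2)
  intro a b hab
  by_contra! h
  exact hab (Subtype.ext (funext fun i => pow_val_injective hζ (h i)))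

theorem eq_zero_of_wt {s ℓ : ℕ} [NeZero ℓ] {xs : Fin s → C.H} {ζ : k} (hζ : IsPrimitiveRoot ζ ℓ)
    (hℓ : (ℓ : k) ≠ 0) (hx : ∀ i, xs i ^ ℓ = 1) (hcomm : ∀ i j, Commute (xs i) (xs j)) {V' : Type} [AddCommGroup V'] [Module k V'] (A : V →ₗ[k] V')
    (hA : ∀ w : Fin s → ZMod ℓ, ∀ v ∈ C.wt xs ζ w, A v = 0) : A = 0 := by
  classical
  suffices h : ∀ S : Finset (Fin s), ∀ v, (∀ j, j ∉ S → ∃ e : ZMod ℓ, C.el (xs j) v = ζ ^ e.val • v) → A v = 0 from
    LinearMap.ext fun v => h Finset.univ v fun j hj => absurd (Finset.mem_univ j) hj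
  intro S
  induction S using Finset.induction_on with
  | empty =>
    intro v hv
    choose e he using fun j => hv j (Finset.notMem_empty j)
    exact hA e v (C.mem_wt.2 he)
  | @insert i S hi ih =>
    intro v hv
    have hsum := LinearMap.congr_fun (sum_eproj (x := C.el (xs i)) hℓ hζ) v
    rw [LinearMap.sum_apply, Module.End.one_apply] at hsum
    rw [← hsum, map_sum]
    refine Finset.sum_eq_zero fun j hj => ih _ fun l hl => ?_
    have hxl : (C.el (xs i)) ^ ℓ = 1 := by rw [← el_pow, hx, el_one]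
    by_cases hli : l = i
    · subst hli
      refine ⟨(j : ZMod ℓ), ?_⟩
      rw [ZMod.val_natCast, Nat.mod_eq_of_lt (Finset.mem_range.1 hj), ← Module.End.mul_apply,
        mul_eproj hxl (by rw [← pow_mul, mul_comm, pow_mul, hζ.pow_eq_one, one_pow]) (NeZero.ne ℓ),
        LinearMap.smul_apply]
    · obtain ⟨e, he⟩ := hv l (by simp [hli, hl])
      refine ⟨e, ?_⟩
      have hc : Commute (C.el (xs l)) (C.el (xs i)) := by
        have := congrArg C.el (hcomm l i).eq
        exact this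
      rw [← Module.End.mul_apply, (commute_eproj hc ℓ _).eq, Module.End.mul_apply, he, map_smul]

theorem finrank_wt_le [FiniteDimensional k V] {s ℓ : ℕ} [NeZero ℓ] {xs : Fin s → C.H} {ζ : k}
    (hζ : IsPrimitiveRoot ζ ℓ) {h : C.H} {τ : Fin s → Fin s} {a : Fin s → ZMod ℓ}
    (hh : ∀ j, h⁻¹ * xs j * h = xs (τ j) ^ (a j).val) (w : Fin s → ZMod ℓ) :
    finrank k (C.wt xs ζ w) ≤ finrank k (C.wt xs ζ fun j => a j * w (τ j)) := by
  refine le_trans (Submodule.equivMapOfInjective _ (C.el_bijective h).1 (C.wt xs ζ w)).finrank_eq.le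
    (Submodule.finrank_mono ?_)
  rintro _ ⟨v, hv, rfl⟩
  rw [C.mem_wt]
  intro j
  have hxj : xs j * h = h * xs (τ j) ^ (a j).val := by rw [← hh j]; group
  have hpow : ∀ n : ℕ, C.el (xs (τ j) ^ n) v = (ζ ^ ((w (τ j)).val * n)) • v := by
    intro n
    induction n with
    | zero => simp [el_one]
    | succ n ih =>
      rw [pow_succ', el_mul, Module.End.mul_apply, ih, map_smul, C.mem_wt.1 hv, smul_smul, ← pow_add, Nat.mul_succ]
  rw [← Module.End.mul_apply, ← el_mul, hxj, el_mul, Module.End.mul_apply, hpow, map_smul, ZMod.val_mul,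
    ← pow_eq_pow_mod _ hζ.pow_eq_one, mul_comm (a j).val]

/-- An element acting by a scalar on a space. -/
def ScalarOn (W : Submodule k V) (x : C.H) : Prop := ∃ c : k, ∀ v ∈ W, C.el x v = c • v

theorem fixed_of_scalarOn {ℓ : ℕ} (hodd : Odd ℓ) {W : Submodule k V} {x g : C.H} (hx : x ^ ℓ = 1)
    (hg : g * x * g⁻¹ = x⁻¹) (hgW : ∀ v ∈ W, C.el g v ∈ W) (hs : C.ScalarOn W x) : W ≤ C.fixd x := by
  obtain ⟨c, hc⟩ := hs
  intro v hv
  rw [mem_fixd]
  by_cases hv0 : v = 0
  · simp [hv0]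
  have hpow : ∀ i : ℕ, C.el (x ^ i) v = c ^ i • v := by
    intro i
    induction i with
    | zero => simp [el_one]
    | succ i ih => rw [pow_succ', el_mul, Module.End.mul_apply, ih, map_smul, hc v hv, smul_smul, pow_succ]
  have h1 : c ^ ℓ = 1 := by
    have h := hpow ℓ
    rw [hx, el_one, Module.End.one_apply] at h
    exact (smul_left_injective k hv0 ((one_smul k v).trans h)).symm
  have h2 : c * c = 1 := by
    have e : x * (g * x) = g := by rw [show g * x = x⁻¹ * g by rw [← hg]; group, mul_inv_cancel_left]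
    have e' := congrArg (fun z => C.el z v) e
    simp only [el_mul, Module.End.mul_apply, hc v hv, map_smul, hc _ (hgW v hv), smul_smul] at e'
    have hgv0 : C.el g v ≠ 0 := fun h => hv0 ((C.el_bijective g).1 (h.trans (map_zero _).symm))
    exact smul_left_injective k hgv0 (e'.trans (one_smul k _).symm)
  have hc1 : c = 1 := by
    obtain ⟨t, rfl⟩ := hodd
    rwa [pow_succ, pow_mul, pow_two, h2, one_pow, one_mul] at h1
  rw [hc v hv, hc1, one_smul]

theorem fixed_of_scalarOn_char (p : ℕ) [Fact p.Prime] [CharP k p] {W : Submodule k V} {x : C.H} (hx : x ^ p = 1)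
    (hs : C.ScalarOn W x) : W ≤ C.fixd x := by
  obtain ⟨c, hc⟩ := hs
  intro v hv
  rw [mem_fixd]
  by_cases hv0 : v = 0
  · simp [hv0]
  have hpow : ∀ i : ℕ, C.el (x ^ i) v = c ^ i • v := by
    intro i
    induction i with
    | zero => simp [el_one]
    | succ i ih => rw [pow_succ', el_mul, Module.End.mul_apply, ih, map_smul, hc v hv, smul_smul, pow_succ]
  have h1 : c ^ p = 1 := by
    have h := hpow p
    rw [hx, el_one, Module.End.one_apply] at h
    exact (smul_left_injective k hv0 ((one_smul k v).trans h)).symm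
  have hc1 : c = 1 := by
    have : (c - 1) ^ p = 0 := by rw [sub_pow_char, h1, one_pow, sub_self]
    exact sub_eq_zero.1 (pow_eq_zero_iff (Fact.out : p.Prime).ne_zero |>.1 this)
  rw [hc v hv, hc1, one_smul]

theorem scalarOn_of_finrank_le_one {W : Submodule k V} [FiniteDimensional k V] (hW : finrank k W ≤ 1) {x : C.H}
    (hx : ∀ v ∈ W, C.el x v ∈ W) : C.ScalarOn W x := by
  obtain ⟨v, hv⟩ := finrank_le_one_iff.1 hW
  obtain ⟨c, hc⟩ := hv ⟨C.el x v.1, hx v.1 v.2⟩
  refine ⟨c, fun w hw => ?_⟩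
  obtain ⟨d, hd⟩ := hv ⟨w, hw⟩
  have hd' : d • (v : V) = w := congrArg Subtype.val hd
  have hc' : c • (v : V) = C.el x v.1 := congrArg Subtype.val hc
  rw [← hd', map_smul, ← hc', smul_comm]

/-- The elements over the even permutations of a set of points. -/
def Over {m : ℕ} (g : Fin m ↪ Fin r) (h : C.H) : Prop :=
  ∃ a : Equiv.Perm (Fin m), Equiv.Perm.sign a = 1 ∧ C.perm h = phi g a

theorem scalarOn_of_over {m : ℕ} (hm : 5 ≤ m) (g : Fin m ↪ Fin r) (W : Submodule k V)
    (hW : ∀ h, C.Over g h → ∀ v ∈ W, C.el h v ∈ W) :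
    (∀ h, C.Over g h → C.ScalarOn W h) ∨ ∀ h, C.Over g h → C.ScalarOn W h → C.perm h = 1 := by
  have : IsSimpleGroup (alternatingGroup (Fin m)) := alternatingGroup.isSimpleGroup (by simpa using hm)
  let N : Subgroup (alternatingGroup (Fin m)) :=
    { carrier := {a | ∃ h : C.H, C.perm h = phi g a.1 ∧ C.ScalarOn W h}
      one_mem' := ⟨1, by simp, 1, fun v _ => by simp [el_one]⟩
      mul_mem' := fun {a b} ⟨h, e, c, hc⟩ ⟨h', e', c', hc'⟩ => ⟨h * h', by simp [e, e'], c' * c, fun v hv => by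
        rw [el_mul, Module.End.mul_apply, hc' v hv, map_smul, hc v hv, smul_smul]⟩
      inv_mem' := fun {a} ⟨h, e, c, hc⟩ => ⟨h⁻¹, by simp [e], c⁻¹, fun v hv => by
        by_cases hv0 : v = 0
        · simp [hv0]
        have hc0 : c ≠ 0 := by
          rintro rfl
          exact hv0 ((C.el_bijective h).1 (by rw [hc v hv, zero_smul, map_zero]))
        rw [show v = c⁻¹ • C.el h v by rw [hc v hv, smul_smul, inv_mul_cancel₀ hc0, one_smul], map_smul,
          el_inv_apply, hc v hv, smul_smul c⁻¹ c, inv_mul_cancel₀ hc0, one_smul]⟩ }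
  have hN : N.Normal := ⟨fun a ⟨h, e, c, hc⟩ b => by
    obtain ⟨y, hy⟩ := C.exists_perm (σ := phi g b.1)
      (by rw [sign_phi]; exact Equiv.Perm.mem_alternatingGroup.1 b.2)
    refine ⟨y * h * y⁻¹, by simp [hy, e], c, fun v hv => ?_⟩
    have hyv : C.el y⁻¹ v ∈ W := hW y⁻¹ ⟨b.1⁻¹, by rw [map_inv, Equiv.Perm.mem_alternatingGroup.1 b.2, inv_one],
      by rw [map_inv, map_inv, hy]⟩ v hv
    rw [el_mul, el_mul, Module.End.mul_apply, Module.End.mul_apply, hc _ hyv, map_smul, el_apply_inv]⟩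
  rcases hN.eq_bot_or_eq_top with h | h
  · refine Or.inr fun x ⟨a, ha, e⟩ hs => ?_
    have hmem : (⟨a, Equiv.Perm.mem_alternatingGroup.2 ha⟩ : alternatingGroup (Fin m)) ∈ N := ⟨x, e, hs⟩
    rw [h, Subgroup.mem_bot] at hmem
    rw [e, show a = 1 from congrArg Subtype.val hmem, map_one]
  · refine Or.inl fun x ⟨a, ha, e⟩ => ?_
    obtain ⟨y, ey, c, hc⟩ := (h ▸ Subgroup.mem_top _ : (⟨a, Equiv.Perm.mem_alternatingGroup.2 ha⟩ :
      alternatingGroup (Fin m)) ∈ N)
    obtain ⟨u, hu⟩ := C.exists_sc (x := x * y⁻¹) (by rw [map_mul, map_inv, e, ey, mul_inv_cancel])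
    refine ⟨(u : k) * c, fun v hv => ?_⟩
    rw [show x = x * y⁻¹ * y by group, hu, el_mul, Module.End.mul_apply, hc v hv, map_smul, el_sc,
      LinearMap.smul_apply, Module.End.one_apply, smul_smul, mul_comm c]

theorem bound_or_scalarOn [FiniteDimensional k V] {m : ℕ} (hm : 9 ≤ m) (hIH : SectionBound m) {p : ℕ} (hp : p.Prime)
    [CharP k p] (g : Fin m ↪ Fin r) (W : Submodule k V) (hW : ∀ h, C.Over g h → ∀ v ∈ W, C.el h v ∈ W) :
    degBound m p ≤ finrank k W ∨ ∀ h, C.Over g h → C.ScalarOn W h := by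
  rcases C.scalarOn_of_over (by omega) g W hW with h | h
  · exact Or.inr h
  refine Or.inl ?_
  obtain ⟨G₀, hfin, hG₀⟩ := C.core
  let ι : alternatingGroup (Fin m) →* Equiv.Perm (Fin r) := (phi g).comp (alternatingGroup (Fin m)).subtype
  let G : Subgroup (G₀ × alternatingGroup (Fin m)) :=
    { carrier := {x | C.perm x.1.1 = ι x.2}
      one_mem' := by simp
      mul_mem' := fun {a b} ha hb => by
        simp only [Set.mem_ofPred_eq] at ha hb ⊢
        simp [ha, hb]
      inv_mem' := fun {a} ha => by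
        simp only [Set.mem_ofPred_eq] at ha ⊢
        simp [ha] }
  have hover : ∀ x : G, C.Over g x.1.1.1 := fun x =>
    ⟨x.1.2.1, Equiv.Perm.mem_alternatingGroup.1 x.1.2.2, x.2⟩
  let π : G →* alternatingGroup (Fin m) := (MonoidHom.snd _ _).comp G.subtype
  have hπ : Function.Surjective π := fun a => by
    obtain ⟨x, hx⟩ := hG₀ ⟨phi g a.1, Equiv.Perm.mem_alternatingGroup.2
      (by rw [sign_phi]; exact Equiv.Perm.mem_alternatingGroup.1 a.2)⟩
    exact ⟨⟨(x, a), congrArg Subtype.val hx⟩, rfl⟩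
  let res : G →* End k W :=
    { toFun := fun x => (C.el x.1.1.1).restrict (hW _ (hover x))
      map_one' := LinearMap.ext fun w => Subtype.ext (by simp [el_one])
      map_mul' := fun x y => LinearMap.ext fun w => Subtype.ext (by simp [el_mul]) }
  refine hIH p hp k W G π res.toHomUnits hπ fun x hx => MonoidHom.mem_ker.2 ?_
  have h1 : res x = 1 := congrArg Units.val (MonoidHom.mem_ker.1 hx)
  have hp1 := h _ (hover x) ⟨1, fun v hv => by
    rw [one_smul]; exact congrArg Subtype.val (LinearMap.congr_fun h1 ⟨v, hv⟩)⟩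
  refine Subtype.ext (Equiv.Perm.viaEmbeddingHom_injective g ?_)
  show phi g x.1.2.1 = phi g 1
  exact (x.2.symm.trans hp1).trans (map_one _).symm

end Cover

end CfsgLib.Classes.AltSections
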