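import Mathlib
import Cfsg.Agent.Lib.Classes.AltSections.Weights

/-!
Tools: orbits of weights, transfer between cycles, and disjoint cycles acting on each other's eigenspaces.
-/

set_option autoImplicit false
set_option linter.unusedSectionVars false

open Module
open Fin.NatCast

namespace CfsgLib.Classes.AltSections

/-- A monomial move of weights. -/
def act {s ℓ : ℕ} (g : (Fin s → Fin s) × (Fin s → ZMod ℓ)) (w : Fin s → ZMod ℓ) : Fin s → ZMod ℓ :=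
  fun j => g.2 j * w (g.1 j)

/-- The weights reached in at most `N` moves. -/
def orbitN {s ℓ : ℕ} (gs : List ((Fin s → Fin s) × (Fin s → ZMod ℓ))) (w : Fin s → ZMod ℓ) :
    ℕ → Finset (Fin s → ZMod ℓ)
  | 0 => {w}
  | N + 1 => gs.foldr (fun g S => S ∪ (orbitN gs w N).image (act g)) (orbitN gs w N)

theorem le_of_mem_orbitN {s ℓ : ℕ} (d : (Fin s → ZMod ℓ) → ℕ) (gs : List ((Fin s → Fin s) × (Fin s → ZMod ℓ)))
    (hd : ∀ g ∈ gs, ∀ w, d w ≤ d (act g w)) (w : Fin s → ZMod ℓ) :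
    ∀ N, ∀ x ∈ orbitN gs w N, d w ≤ d x := by
  intro N
  induction N with
  | zero => intro x hx; simp [orbitN] at hx; rw [hx]
  | succ N ih =>
    suffices h : ∀ l : List ((Fin s → Fin s) × (Fin s → ZMod ℓ)), (∀ g ∈ l, g ∈ gs) →
        ∀ x ∈ l.foldr (fun g S => S ∪ (orbitN gs w N).image (act g)) (orbitN gs w N), d w ≤ d x from
      h gs (fun _ h => h)
    intro l
    induction l with
    | nil => intro _ x hx; exact ih x hx
    | cons g l ihl =>
      intro hl x hx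
      rw [List.foldr_cons, Finset.mem_union] at hx
      rcases hx with hx | hx
      · exact ihl (fun g hg => hl g (List.mem_cons_of_mem _ hg)) x hx
      · obtain ⟨y, hy, rfl⟩ := Finset.mem_image.1 hx
        exact (ih y hy).trans (hd g (hl g List.mem_cons_self) y)

theorem exists_compl {a r : ℕ} (f : Fin a ↪ Fin r) :
    ∃ g : Fin (r - a) ↪ Fin r, ∀ i j, g i ≠ f j := by
  classical
  have hc : ((Finset.univ.image f)ᶜ).card = r - a := by
    rw [Finset.card_compl, Finset.card_image_of_injective _ f.injective, Finset.card_univ, Fintype.card_fin,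
      Fintype.card_fin]
  refine ⟨((Finset.univ.image f)ᶜ.orderEmbOfFin hc).toEmbedding, fun i j e => ?_⟩
  exact Finset.mem_compl.1 (e ▸ Finset.orderEmbOfFin_mem _ hc i) (Finset.mem_image.2 ⟨j, Finset.mem_univ j, rfl⟩)

theorem phi_commute {a b r : ℕ} (f : Fin a ↪ Fin r) (g : Fin b ↪ Fin r) (h : ∀ i j, g i ≠ f j)
    (x : Equiv.Perm (Fin a)) (y : Equiv.Perm (Fin b)) : Commute (phi g y) (phi f x) :=
  mul_inv_eq_iff_eq_mul.1 (conj_phi (fun j => phi_apply_of_notMem g y (fun ⟨i, hi⟩ => h i j hi)) x)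

theorem exists_rot_inverter {a m : ℕ} (b : Fin a ↪ Fin m) (h : a + 2 ≤ m) :
    ∃ e : Equiv.Perm (Fin m), Equiv.Perm.sign e = 1 ∧
      e * phi b (finRotate a) * e⁻¹ = phi b (finRotate a)⁻¹ := by
  rcases a with _ | n
  · exact ⟨1, map_one _, by
      rw [show (finRotate 0) = (1 : Equiv.Perm (Fin 0)) from Subsingleton.elim _ _, map_one, inv_one]; simp⟩
  obtain ⟨e, he, hconj⟩ := exists_even_conj b h (Equiv.neg (Fin (n + 1)))
  refine ⟨e, he, ?_⟩
  rw [hconj]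
  congr 1
  refine Equiv.ext fun i => ?_
  symm
  rw [Equiv.Perm.inv_eq_iff_eq, Equiv.Perm.mul_apply, Equiv.Perm.mul_apply, finRotate_apply, finRotate_apply]
  simp [Equiv.Perm.inv_def, add_comm]

namespace Cover

variable {k V : Type} [Field k] [AddCommGroup V] [Module k V] {r : ℕ} (C : Cover k V r) [Nontrivial V]
  [IsAlgClosed k] [FiniteDimensional k V]

theorem finrank_moved_cyc (hr : 9 ≤ r) {ℓ : ℕ} [Fact ℓ.Prime] (hodd : Odd ℓ) (hℓr : ℓ + 2 ≤ r)
    (f g : Fin ℓ ↪ Fin r) : finrank k (C.moved (C.cyc f)) = finrank k (C.moved (C.cyc g)) := by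
  obtain ⟨e, he, hmap⟩ := exists_even_map f g hℓr
  obtain ⟨h, hh⟩ := C.exists_perm he
  have hconj := C.cyc_conj hr hodd hℓr (f := f) (g := g) (h := h) (s := 1)
    (by rw [hh, conj_phi hmap, pow_one])
  rw [pow_one] at hconj
  rw [← hconj, C.finrank_moved_conj]

theorem cyc_over {ℓ m : ℕ} (hodd : Odd ℓ) (hℓr : ℓ + 2 ≤ r) (g : Fin m ↪ Fin r) (b : Fin ℓ ↪ Fin m) :
    C.Over g (C.cyc (b.trans g)) := by
  obtain ⟨t, rfl⟩ := hodd
  refine ⟨phi b (finRotate _), ?_, ?_⟩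
  · rw [sign_phi, sign_finRotate, Nat.add_sub_cancel, pow_mul, neg_one_sq, one_pow]
  · rw [phi_trans, (C.cyc_spec (by exact ⟨t, rfl⟩) hℓr _).2]

theorem exists_over_inverter (hr : 9 ≤ r) {ℓ m : ℕ} [hℓ : Fact ℓ.Prime] (hodd : Odd ℓ) (hℓr : ℓ + 2 ≤ r)
    (hℓm : ℓ + 2 ≤ m) (g : Fin m ↪ Fin r) (b : Fin ℓ ↪ Fin m) :
    ∃ h, C.Over g h ∧ h * C.cyc (b.trans g) * h⁻¹ = (C.cyc (b.trans g))⁻¹ := by
  obtain ⟨e, he, hconj⟩ := exists_rot_inverter b hℓm
  obtain ⟨h, hh⟩ := C.exists_perm (σ := phi g e) (by rw [sign_phi, he])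
  refine ⟨h, ⟨e, he, hh⟩, ?_⟩
  have hx := (C.cyc_spec hodd hℓr (b.trans g)).1.1
  have hrot : finRotate ℓ ^ ℓ = 1 := by
    have h := pow_orderOf_eq_one (finRotate ℓ)
    rwa [(isCycle_finRotate_of_le hℓ.out.two_le).orderOf, support_finRotate_of_le hℓ.out.two_le, Finset.card_univ,
      Fintype.card_fin] at h
  have hsub : ℓ - 1 + 1 = ℓ := Nat.sub_add_cancel hℓ.out.one_le
  rw [C.cyc_conj hr hodd hℓr (g := b.trans g) (s := ℓ - 1) ?_]
  · refine eq_inv_of_mul_eq_one_left ?_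
    rw [← pow_succ, hsub, hx]
  · rw [hh, ← phi_trans, ← map_inv, ← map_mul, ← map_mul, hconj, ← map_pow, ← map_pow]
    congr 2
    symm
    refine eq_inv_of_mul_eq_one_left ?_
    rw [← pow_succ, hsub, hrot]

theorem commute_over (hr : 9 ≤ r) {ℓ m : ℕ} [Fact ℓ.Prime] (hodd : Odd ℓ) (hℓr : ℓ + 2 ≤ r) {f : Fin ℓ ↪ Fin r}
    {g : Fin m ↪ Fin r} (hd : ∀ i j, g i ≠ f j) {h : C.H} (hh : C.Over g h) : Commute h (C.cyc f) := by
  obtain ⟨a, -, e⟩ := hh
  exact C.cyc_commute hr hodd hℓr f (by rw [e]; exact phi_commute f g hd _ _)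

theorem fixd_of_fixed_moved {x y : C.H} (hc : Commute y x) (h : C.moved x ≤ C.fixd y) : C.moved y ≤ C.fixd x := by
  apply C.moved_le_fixd
  rw [C.mul_sub_one_comm hc.symm]
  exact LinearMap.ext fun w => h ⟨w, rfl⟩

/-- Transfer of dimensions of the eigenspaces of one cycle. -/
theorem wt_single_le (hr : 9 ≤ r) {ℓ : ℕ} [hℓ : Fact ℓ.Prime] (hodd : Odd ℓ) (hℓr : ℓ + 2 ≤ r)
    (f : Fin ℓ ↪ Fin r) {ζ : k} (hζ : IsPrimitiveRoot ζ ℓ) (π : Equiv.Perm (Fin ℓ)) (a : ZMod ℓ)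
    (hdec : π * finRotate ℓ * π⁻¹ = finRotate ℓ ^ a.val) (w : Fin 1 → ZMod ℓ) :
    finrank k (C.wt ![C.cyc f] ζ w) ≤ finrank k (C.wt ![C.cyc f] ζ (act (id, fun _ => a) w)) := by
  have : NeZero ℓ := ⟨hℓ.out.ne_zero⟩
  obtain ⟨e, he, hconj⟩ := exists_even_conj f hℓr π
  obtain ⟨h, hh⟩ := C.exists_perm he
  refine C.finrank_wt_le hζ (h := h⁻¹) (τ := id) (a := fun _ => a) (fun j => ?_) w
  fin_cases j
  rw [inv_inv]
  exact C.cyc_conj hr hodd hℓr (by rw [hh, hconj, hdec, map_pow])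

theorem exists_wt_mem_moved {ℓ : ℕ} [NeZero ℓ] {s : ℕ} {xs : Fin s → C.H} {ζ : k} (hζ : IsPrimitiveRoot ζ ℓ)
    {w : Fin s → ZMod ℓ} (i : Fin s) (hw : w i ≠ 0) : C.wt xs ζ w ≤ C.moved (xs i) := by
  intro v hv
  refine C.mem_moved_of_eigen (μ := ζ ^ (w i).val) (fun h => hw ?_) (C.mem_wt.1 hv i)
  exact pow_val_injective hζ (h.trans (by rw [ZMod.val_zero, pow_zero]))

/-- The moved space is contained in a space containing all nontrivial weight spaces. -/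
theorem moved_le_of_wt {ℓ : ℕ} [NeZero ℓ] (hℓ : (ℓ : k) ≠ 0) {s : ℕ} {xs : Fin s → C.H} {ζ : k}
    (hζ : IsPrimitiveRoot ζ ℓ) (hx : ∀ i, xs i ^ ℓ = 1) (hcomm : ∀ i j, Commute (xs i) (xs j)) (i : Fin s)
    (U : Submodule k V) (hU : ∀ w : Fin s → ZMod ℓ, w i ≠ 0 → C.wt xs ζ w ≤ U) : C.moved (xs i) ≤ U := by
  have h := C.eq_zero_of_wt hζ hℓ hx hcomm (U.mkQ.comp (C.el (xs i) - 1)) (fun w v hv => by
    by_cases hw : w i = 0
    · rw [LinearMap.comp_apply, LinearMap.sub_apply, C.mem_wt.1 hv i, hw, ZMod.val_zero, pow_zero, one_smul,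
        Module.End.one_apply, sub_self, map_zero]
    · rw [LinearMap.comp_apply, Submodule.mkQ_apply, Submodule.Quotient.mk_eq_zero, LinearMap.sub_apply,
        Module.End.one_apply, C.mem_wt.1 hv i]
      exact sub_mem (U.smul_mem _ (hU w hw hv)) (hU w hw hv))
  rintro _ ⟨v, rfl⟩
  exact (Submodule.Quotient.mk_eq_zero U).1 (LinearMap.congr_fun h v)

/-- A cycle all of whose eigenspaces are too small to carry a section of the alternating group on the complementary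
points is killed by the complementary cycles. -/
theorem moved_le_fixd_of_small (hr : 9 ≤ r) {ℓ m : ℕ} [hℓ : Fact ℓ.Prime] (hℓodd : Odd ℓ) (hℓr : ℓ + 2 ≤ r)
    (hℓk : (ℓ : k) ≠ 0) (f : Fin ℓ ↪ Fin r) (hm : 9 ≤ m) (hIH : SectionBound m) {p : ℕ} (hp : p.Prime) [CharP k p]
    (g : Fin m ↪ Fin r) (hd : ∀ i j, g i ≠ f j) {ζ : k} (hζ : IsPrimitiveRoot ζ ℓ)
    (hsmall : ∀ w : Fin 1 → ZMod ℓ, w 0 ≠ 0 → finrank k (C.wt ![C.cyc f] ζ w) < degBound m p) (b : Fin 3 ↪ Fin m) :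
    C.moved (C.cyc f) ≤ C.fixd (C.cyc (b.trans g)) := by
  have : NeZero ℓ := ⟨hℓ.out.ne_zero⟩
  have : Fact (Nat.Prime 3) := ⟨Nat.prime_three⟩
  refine C.moved_le_of_wt hℓk hζ (xs := ![C.cyc f]) (fun i => by
    fin_cases i; exact (C.cyc_spec hℓodd hℓr f).1.1) (fun i j => by fin_cases i; fin_cases j; exact Commute.refl _) 0 _
    fun w hw => ?_
  have hinv : ∀ h, C.Over g h → ∀ v ∈ C.wt ![C.cyc f] ζ w, C.el h v ∈ C.wt ![C.cyc f] ζ w := by
    intro h hh v hv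
    rw [C.mem_wt] at hv ⊢
    intro i
    fin_cases i
    have := (C.commute_over hr hℓodd hℓr hd hh).eq
    change C.el (C.cyc f) (C.el h v) = _
    rw [← Module.End.mul_apply, ← el_mul, ← this, el_mul, Module.End.mul_apply]
    exact (congrArg (C.el h) (hv 0)).trans (map_smul _ _ _)
  rcases C.bound_or_scalarOn hm hIH hp g _ hinv with h | h
  · exact absurd h (not_le.2 (hsmall w hw))
  obtain ⟨y, hy, hyx⟩ := C.exists_over_inverter hr (ℓ := 3) (by decide) (by omega) (by omega) g b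
  exact C.fixed_of_scalarOn (ℓ := 3) (by decide) (C.cyc_spec (by decide) (by omega) _).1.1 hyx (hinv y hy)
    (h _ (C.cyc_over (by decide) (by omega) g b))

/-- A cycle killed by a disjoint cycle has moved space bounded by the complementary degree. -/
theorem finrank_moved_add_bound_le (hr : 9 ≤ r) {ℓ ℓ' m : ℕ} [hℓ : Fact ℓ.Prime] [hℓ' : Fact ℓ'.Prime]
    (hodd : Odd ℓ) (hℓr : ℓ + 2 ≤ r) (hodd' : Odd ℓ') (hℓr' : ℓ' + 2 ≤ r) (hℓm : ℓ' + 2 ≤ m)
    (hℓk : (ℓ' : k) ≠ 0) (f : Fin ℓ ↪ Fin r) (hm : 9 ≤ m) (hIH : SectionBound m) {p : ℕ} (hp : p.Prime)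
    [CharP k p] (g : Fin m ↪ Fin r) (hd : ∀ i j, g i ≠ f j) (b : Fin ℓ' ↪ Fin m)
    (hkill : C.moved (C.cyc (b.trans g)) ≤ C.fixd (C.cyc f)) :
    finrank k (C.moved (C.cyc f)) + degBound m p ≤ finrank k V := by
  have hinv : ∀ h, C.Over g h → ∀ v ∈ C.fixd (C.cyc f), C.el h v ∈ C.fixd (C.cyc f) := fun h hh =>
    C.fixd_invariant (C.commute_over hr hodd hℓr hd hh)
  rcases C.bound_or_scalarOn hm hIH hp g _ hinv with h | h
  · have := C.finrank_moved_add (C.cyc f)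
    omega
  exfalso
  obtain ⟨y, hy, hyx⟩ := C.exists_over_inverter hr hodd' hℓr' hℓm g b
  have hx := (C.cyc_spec hodd' hℓr' (b.trans g)).1.1
  have hfix := C.fixed_of_scalarOn hodd' hx hyx (hinv y hy) (h _ (C.cyc_over hodd' hℓr' g b))
  refine C.moved_ne_bot (C.perm_cyc_ne_one hr hodd' hℓr' (b.trans g)) ?_
  rw [eq_bot_iff]
  exact fun v hv => C.moved_inf_fixd hℓk hx v hv (hfix (hkill hv))

end Cover

end CfsgLib.Classes.AltSections
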