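import Mathlib

/-!
A space carrying a configuration of lines indexed by pairs of points, permuted by the alternating group, is a quotient
of the deleted permutation module.
-/

set_option autoImplicit false
set_option linter.unusedSectionVars false

open Module

namespace CfsgLib.Classes.AltSections

variable {k V : Type*} [Field k] [AddCommGroup V] [Module k V]

theorem le_span_of_mem_line {p : Submodule k V} (hp : finrank k p = 1) {v w : V} (hv : v ∈ p) (hv0 : v ≠ 0)
    (hw : w ∈ p) : ∃ c : k, c • v = w := by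
  obtain ⟨c, hc⟩ := (finrank_eq_one_iff_of_nonzero' (⟨v, hv⟩ : p) (fun h => hv0 (congrArg Subtype.val h))).1 hp ⟨w, hw⟩
  exact ⟨c, congrArg Subtype.val hc⟩

theorem mem_or_disjoint {p q : Submodule k V} (hp : finrank k p = 1) (hq : finrank k q = 1) (hne : p ≠ q) {v : V}
    (hvp : v ∈ p) (hvq : v ∈ q) : v = 0 := by
  by_contra hv
  refine hne (le_antisymm (fun w hw => ?_) (fun w hw => ?_))
  · obtain ⟨c, rfl⟩ := le_span_of_mem_line hp hvp hv hw
    exact q.smul_mem c hvq
  · obtain ⟨c, rfl⟩ := le_span_of_mem_line hq hvq hv hw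
    exact p.smul_mem c hvp

/-- An invariant space of vectors with zero sum contains only constant vectors or a difference of two unit vectors. -/
theorem const_or_diff {r : ℕ} (hr : 5 ≤ r) (N : Submodule k (Fin r → k)) (hsum : ∀ a ∈ N, ∑ i, a i = 0)
    (hinv : ∀ σ : Equiv.Perm (Fin r), Equiv.Perm.sign σ = 1 → ∀ a ∈ N, (fun x => a (σ.symm x)) ∈ N) :
    (∀ a ∈ N, ∀ i j, a i = a j) ∨ ∃ i j, i ≠ j ∧ (Pi.single i 1 - Pi.single j 1 : Fin r → k) ∈ N := by
  classical
  by_contra hcon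
  push Not at hcon
  obtain ⟨⟨a, ha, i, j, hij⟩, hno⟩ := hcon
  have hne : i ≠ j := fun h => hij (by rw [h])
  have hfree : ∀ s : Finset (Fin r), s.card < r → ∃ l, l ∉ s := fun s hs => by
    by_contra! h
    have := Finset.eq_univ_iff_forall.2 h
    rw [this, Finset.card_univ, Fintype.card_fin] at hs
    omega
  obtain ⟨m, hm⟩ := hfree {i, j} (lt_of_le_of_lt Finset.card_le_two (by omega))
  simp only [Finset.mem_insert, Finset.mem_singleton, not_or] at hm
  obtain ⟨hmi, hmj⟩ := hm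
  set σ := Equiv.swap i m * Equiv.swap i j with hσ
  have hσs : Equiv.Perm.sign σ = 1 := by
    rw [hσ, map_mul, Equiv.Perm.sign_swap (Ne.symm hmi), Equiv.Perm.sign_swap hne]; rfl
  set b : Fin r → k := a - fun x => a (σ.symm x) with hbdef
  have hb : b ∈ N := sub_mem ha (hinv σ hσs a ha)
  have hσsymm : ∀ x, σ.symm x = Equiv.swap i j (Equiv.swap i m x) := fun x => by
    rw [hσ, ← Equiv.Perm.inv_def, _root_.mul_inv_rev, Equiv.swap_inv, Equiv.swap_inv, Equiv.Perm.mul_apply]
  have hbi : b i ≠ 0 ∨ b j ≠ 0 := by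
    by_contra! h
    have h1 : b j = a j - a i := by
      simp [hbdef, hσsymm, Equiv.swap_apply_of_ne_of_ne hne.symm (Ne.symm hmj)]
    rw [h1, sub_eq_zero] at h
    exact hij h.2.symm
  have hbsupp : ∀ x, x ≠ i → x ≠ j → x ≠ m → b x = 0 := fun x h1 h2 h3 => by
    simp [hbdef, hσsymm, Equiv.swap_apply_of_ne_of_ne h1 h3, Equiv.swap_apply_of_ne_of_ne h1 h2]
  obtain ⟨l, hl⟩ := hfree {i, j, m} (lt_of_le_of_lt Finset.card_le_three (by omega))
  simp only [Finset.mem_insert, Finset.mem_singleton, not_or] at hl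
  obtain ⟨hli, hlj, hlm⟩ := hl
  obtain ⟨o, ho⟩ := hfree {i, j, m, l} (lt_of_le_of_lt Finset.card_le_four (by omega))
  simp only [Finset.mem_insert, Finset.mem_singleton, not_or] at ho
  obtain ⟨hoi, hoj, hom, hol⟩ := ho
  -- a swap inside the support
  have key : ∀ x y, x ≠ y → x ≠ l → x ≠ o → y ≠ l → y ≠ o → b x = b y := by
    intro x y hxy hxl hxo hyl hyo
    by_contra hbxy
    refine hno x y hxy ?_
    set τ := Equiv.swap x y * Equiv.swap l o with hτ
    have h1 := sub_mem hb (hinv τ (by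
      rw [hτ, map_mul, Equiv.Perm.sign_swap hxy, Equiv.Perm.sign_swap (Ne.symm hol)]; rfl) b hb)
    have hbl : b l = 0 := hbsupp l hli hlj hlm
    have hbo : b o = 0 := hbsupp o hoi hoj hom
    have h3 : b - (fun z => b (τ.symm z)) = (b x - b y) • (Pi.single x 1 - Pi.single y 1 : Fin r → k) := by
      funext z
      have hτs : τ.symm z = Equiv.swap l o (Equiv.swap x y z) := by
        rw [hτ, ← Equiv.Perm.inv_def, _root_.mul_inv_rev, Equiv.swap_inv, Equiv.swap_inv, Equiv.Perm.mul_apply]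
      simp only [Pi.sub_apply, Pi.smul_apply, smul_eq_mul, hτs]
      by_cases hzx : z = x
      · subst hzx; simp [hxy, Equiv.swap_apply_of_ne_of_ne hyl hyo]
      by_cases hzy : z = y
      · subst hzy; simp [hxy.symm, Equiv.swap_apply_of_ne_of_ne hxl hxo]
      rw [Equiv.swap_apply_of_ne_of_ne hzx hzy]
      by_cases hzl : z = l
      · subst hzl; simp [hbl, hbo, hzx, hzy]
      by_cases hzo : z = o
      · subst hzo; simp [hbl, hbo, hzx, hzy]
      simp [Equiv.swap_apply_of_ne_of_ne hzl hzo, hzx, hzy]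
    rw [h3] at h1
    exact (N.smul_mem_iff (sub_ne_zero.2 hbxy)).1 h1
  have eij : b i = b j := key i j hne (Ne.symm hli) (Ne.symm hoi) (Ne.symm hlj) (Ne.symm hoj)
  have eim : b i = b m := key i m (Ne.symm hmi) (Ne.symm hli) (Ne.symm hoi) (Ne.symm hlm) (Ne.symm hom)
  have hα : b i ≠ 0 := hbi.elim id fun h => eij ▸ h
  -- move one point of the support
  refine hno i l (Ne.symm hli) ?_
  set σ' := Equiv.swap i l * Equiv.swap l o with hσ'
  have h1 := sub_mem hb (hinv σ' (by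
    rw [hσ', map_mul, Equiv.Perm.sign_swap (Ne.symm hli), Equiv.Perm.sign_swap (Ne.symm hol)]; rfl) b hb)
  have hbl : b l = 0 := hbsupp l hli hlj hlm
  have hbo : b o = 0 := hbsupp o hoi hoj hom
  have h3 : b - (fun z => b (σ'.symm z)) = b i • (Pi.single i 1 - Pi.single l 1 : Fin r → k) := by
    funext z
    have hs : σ'.symm z = Equiv.swap l o (Equiv.swap i l z) := by
      rw [hσ', ← Equiv.Perm.inv_def, _root_.mul_inv_rev, Equiv.swap_inv, Equiv.swap_inv, Equiv.Perm.mul_apply]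
    simp only [Pi.sub_apply, Pi.smul_apply, smul_eq_mul, hs]
    by_cases hzi : z = i
    · subst hzi; simp [hbo, Ne.symm hli]
    by_cases hzl : z = l
    · subst hzl; simp [hbl, hli, Equiv.swap_apply_of_ne_of_ne (Ne.symm hli) (Ne.symm hoi)]
    rw [Equiv.swap_apply_of_ne_of_ne hzi hzl]
    by_cases hzo : z = o
    · subst hzo; simp [hbl, hbo, hzi, hol]
    simp [Equiv.swap_apply_of_ne_of_ne hzl hzo, hzi, hzl]
  rw [h3] at h1
  exact (N.smul_mem_iff hα).1 h1

variable [FiniteDimensional k V]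

set_option maxHeartbeats 1000000 in
/-- The dimension bound from a configuration of lines. -/
theorem bound_of_lines {r p : ℕ} [CharP k p] (hr : 5 ≤ r) (L : Fin r → Fin r → Submodule k V)
    (hsymm : ∀ i j, L i j = L j i) (hdim : ∀ i j, i ≠ j → finrank k (L i j) = 1)
    (htri : ∀ i j l, i ≠ j → j ≠ l → i ≠ l → L i l ≤ L i j ⊔ L j l)
    (hdist : ∀ i j l, i ≠ j → j ≠ l → i ≠ l → L i j ≠ L j l)
    (hquad : ∀ i j l m, i ≠ j → i ≠ l → i ≠ m → j ≠ l → j ≠ m → l ≠ m → ¬ L i m ≤ L i j ⊔ L i l)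
    (hequiv : ∀ σ : Equiv.Perm (Fin r), Equiv.Perm.sign σ = 1 → ∃ T : V →ₗ[k] V,
      Function.Injective T ∧ ∀ i j, i ≠ j → ∀ x ∈ L i j, T x ∈ L (σ i) (σ j)) :
    r - 1 - (if p ∣ r then 1 else 0) ≤ finrank k V := by
  classical
  have hnz : ∀ i j, i ≠ j → ∃ v ∈ L i j, v ≠ 0 := fun i j h => by
    obtain ⟨v, hv, hv0⟩ := (L i j).ne_bot_iff.1 fun hb => by
      have := hdim i j h
      rw [hb, finrank_bot] at this
      omega
    exact ⟨v, hv, hv0⟩
  let z₀ : Fin r := ⟨0, by omega⟩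
  let z₁ : Fin r := ⟨1, by omega⟩
  have h01 : z₀ ≠ z₁ := by simp [z₀, z₁]
  obtain ⟨v₁, hv₁, hv₁0⟩ := hnz z₀ z₁ h01
  -- the scaled vectors
  have hex : ∀ i, ∃ v : V, (i = z₀ → v = 0) ∧ (i = z₁ → v = v₁) ∧
      (i ≠ z₀ → v ∈ L z₀ i ∧ v ≠ 0) ∧ (i ≠ z₀ → i ≠ z₁ → v₁ - v ∈ L z₁ i) := by
    intro i
    by_cases h0 : i = z₀
    · exact ⟨0, fun _ => rfl, fun h1 => absurd (h0.symm.trans h1) h01, fun h => absurd h0 h, fun h => absurd h0 h⟩
    by_cases h1 : i = z₁
    · subst h1
      exact ⟨v₁, fun h => absurd h h0, fun _ => rfl, fun _ => ⟨hv₁, hv₁0⟩, fun _ h => absurd rfl h⟩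
    obtain ⟨u, hu, hu0⟩ := hnz z₀ i (Ne.symm h0)
    obtain ⟨w, hw, hw0⟩ := hnz z₁ i (Ne.symm h1)
    obtain ⟨x, hx, y, hy, hxy⟩ := Submodule.mem_sup.1 (htri z₁ z₀ i h01.symm (Ne.symm h0) (Ne.symm h1) hw)
    rw [hsymm] at hx
    obtain ⟨α, rfl⟩ := le_span_of_mem_line (hdim _ _ h01) hv₁ hv₁0 hx
    obtain ⟨β, rfl⟩ := le_span_of_mem_line (hdim _ _ (Ne.symm h0)) hu hu0 hy
    have hα : α ≠ 0 := by
      rintro rfl
      rw [zero_smul, zero_add] at hxy
      refine hdist z₀ i z₁ (Ne.symm h0) h1 h01 ?_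
      by_contra hne
      exact hw0 (mem_or_disjoint (hdim _ _ (Ne.symm h0)) (hdim _ _ h1) hne
        (hxy ▸ (L z₀ i).smul_mem β hu) (hsymm z₁ i ▸ hw))
    have hβ : β ≠ 0 := by
      rintro rfl
      rw [zero_smul, add_zero] at hxy
      refine hdist z₀ z₁ i h01 (Ne.symm h1) (Ne.symm h0) ?_
      by_contra hne
      exact hw0 (mem_or_disjoint (hdim _ _ h01) (hdim _ _ (Ne.symm h1)) hne (hxy ▸ (L z₀ z₁).smul_mem α hv₁) hw)
    refine ⟨-(α⁻¹ * β) • u, fun h => absurd h h0, fun h => absurd h h1, fun _ => ⟨(L z₀ i).smul_mem _ hu,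
      smul_ne_zero (neg_ne_zero.2 (mul_ne_zero (inv_ne_zero hα) hβ)) hu0⟩, fun _ _ => ?_⟩
    rw [neg_smul, sub_neg_eq_add, ← (L z₁ i).smul_mem_iff hα, smul_add, smul_smul, ← mul_assoc, mul_inv_cancel₀ hα,
      one_mul, hxy]
    exact hw
  choose v hv0 hv1 hvL hvD using hex
  have hLI : ∀ i j, i ≠ z₀ → j ≠ z₀ → i ≠ j → ∀ a b : k, a • v i + b • v j = 0 → a = 0 ∧ b = 0 := by
    intro i j hi hj hij a b h
    have h1 : a • v i = -(b • v j) := eq_neg_of_add_eq_zero_left h
    have h2 : a • v i = 0 := mem_or_disjoint (hdim _ _ (Ne.symm hi)) (hdim _ _ (Ne.symm hj))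
      (fun e => hdist i z₀ j hi (Ne.symm hj) hij (by rw [hsymm i z₀]; exact e))
      ((L z₀ i).smul_mem a (hvL i hi).1) (h1 ▸ neg_mem ((L z₀ j).smul_mem b (hvL j hj).1))
    rw [h2, zero_add] at h
    exact ⟨(smul_eq_zero.1 h2).resolve_right (hvL i hi).2, (smul_eq_zero.1 h).resolve_right (hvL j hj).2⟩
  have hdiff : ∀ i j, i ≠ j → v i - v j ∈ L i j ∧ v i - v j ≠ 0 := by
    intro i j hij
    by_cases hi : i = z₀
    · subst hi
      rw [hv0 z₀ rfl, zero_sub]
      exact ⟨neg_mem (hvL j (Ne.symm hij)).1, neg_ne_zero.2 (hvL j (Ne.symm hij)).2⟩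
    by_cases hj : j = z₀
    · subst hj
      rw [hv0 z₀ rfl, sub_zero, hsymm]
      exact ⟨(hvL i hi).1, (hvL i hi).2⟩
    refine ⟨?_, fun h => one_ne_zero (hLI i j hi hj hij 1 (-1) (by rw [one_smul, neg_one_smul, ← sub_eq_add_neg, h])).1⟩
    by_cases hi1 : i = z₁
    · subst hi1
      rw [hv1 z₁ rfl]
      exact hvD j hj (Ne.symm hij)
    by_cases hj1 : j = z₁
    · subst hj1
      rw [hv1 z₁ rfl, hsymm, ← neg_sub]
      exact neg_mem (hvD i hi hi1)
    obtain ⟨w, hw, hw0⟩ := hnz i j hij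
    obtain ⟨x, hx, y, hy, hxy⟩ := Submodule.mem_sup.1 (htri i z₀ j hi (Ne.symm hj) hij hw)
    rw [hsymm] at hx
    obtain ⟨a, rfl⟩ := le_span_of_mem_line (hdim _ _ (Ne.symm hi)) (hvL i hi).1 (hvL i hi).2 hx
    obtain ⟨b, rfl⟩ := le_span_of_mem_line (hdim _ _ (Ne.symm hj)) (hvL j hj).1 (hvL j hj).2 hy
    obtain ⟨x, hx, y, hy, hxy'⟩ := Submodule.mem_sup.1 (htri i z₁ j hi1 (Ne.symm hj1) hij hw)
    have hd1 : ∀ l, l ≠ z₀ → l ≠ z₁ → v₁ - v l ≠ 0 := fun l h h' e => by
      refine one_ne_zero (hLI z₁ l h01.symm h (Ne.symm h') 1 (-1) ?_).1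
      rw [one_smul, neg_one_smul, hv1 z₁ rfl, ← sub_eq_add_neg, e]
    rw [hsymm] at hx
    obtain ⟨c, rfl⟩ := le_span_of_mem_line (hdim _ _ (Ne.symm hi1)) (hvD i hi hi1) (hd1 i hi hi1) hx
    obtain ⟨e, rfl⟩ := le_span_of_mem_line (hdim _ _ (Ne.symm hj1)) (hvD j hj hj1) (hd1 j hj hj1) hy
    have heq : (c + e) • v₁ = (a + c) • v i + (b + e) • v j := by
      linear_combination (norm := module) hxy' - hxy
    have hce : c + e = 0 := by
      by_contra h
      refine hquad z₀ i j z₁ (Ne.symm hi) (Ne.symm hj) h01 hij hi1 hj1 ?_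
      intro z hz
      obtain ⟨s, rfl⟩ := le_span_of_mem_line (hdim _ _ h01) hv₁ hv₁0 hz
      refine Submodule.smul_mem _ s ((Submodule.smul_mem_iff _ h).1 ?_)
      rw [heq]
      exact add_mem (Submodule.smul_mem _ _ (Submodule.mem_sup_left (hvL i hi).1))
        (Submodule.smul_mem _ _ (Submodule.mem_sup_right (hvL j hj).1))
    rw [hce, zero_smul] at heq
    obtain ⟨hac, hbe⟩ := hLI i j hi hj hij _ _ heq.symm
    have hw' : w = a • (v i - v j) := by
      rw [← hxy, show b = -a by linear_combination hbe + hac - hce, neg_smul, smul_sub, ← sub_eq_add_neg]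
    have ha : a ≠ 0 := fun h => hw0 (by rw [hw', h, zero_smul])
    rw [← (L i j).smul_mem_iff ha, ← hw']
    exact hw
  have hpairLI : ∀ i j l, i ≠ j → j ≠ l → i ≠ l → ∀ a b : k, a • (v i - v j) + b • (v j - v l) = 0 → a = 0 ∧ b = 0 := by
    intro i j l hij hjl hil a b h
    have h1 : a • (v i - v j) = -(b • (v j - v l)) := eq_neg_of_add_eq_zero_left h
    have h2 : a • (v i - v j) = 0 := mem_or_disjoint (hdim _ _ hij) (hdim _ _ hjl) (hdist i j l hij hjl hil)
      ((L i j).smul_mem a (hdiff i j hij).1) (h1 ▸ neg_mem ((L j l).smul_mem b (hdiff j l hjl).1))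
    rw [h2, zero_add] at h
    exact ⟨(smul_eq_zero.1 h2).resolve_right (hdiff i j hij).2, (smul_eq_zero.1 h).resolve_right (hdiff j l hjl).2⟩
  -- the map from the deleted module
  let Φ : (Fin r → k) →ₗ[k] V := Fintype.linearCombination k v
  let S : (Fin r → k) →ₗ[k] k := Fintype.linearCombination k (fun _ => (1 : k))
  have hS : ∀ a, S a = ∑ i, a i := fun a => by simp [S, Fintype.linearCombination_apply]
  let N : Submodule k (Fin r → k) := LinearMap.ker S ⊓ LinearMap.ker Φ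
  have hinv : ∀ σ : Equiv.Perm (Fin r), Equiv.Perm.sign σ = 1 → ∀ a ∈ N, (fun x => a (σ.symm x)) ∈ N := by
    intro σ hσ a ha
    obtain ⟨ha1, ha2⟩ := Submodule.mem_inf.1 ha
    rw [LinearMap.mem_ker, hS] at ha1
    refine Submodule.mem_inf.2 ⟨?_, ?_⟩
    · rw [LinearMap.mem_ker, hS, Equiv.sum_comp σ.symm a, ha1]
    obtain ⟨T, hT, hTL⟩ := hequiv σ hσ
    have hscal : ∀ i j, i ≠ j → ∃ c : k, c ≠ 0 ∧ T (v i - v j) = c • (v (σ i) - v (σ j)) := by
      intro i j hij
      obtain ⟨c, hc⟩ := le_span_of_mem_line (hdim _ _ (fun h => hij (σ.injective h)))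
        (hdiff _ _ (fun h => hij (σ.injective h))).1 (hdiff _ _ (fun h => hij (σ.injective h))).2
        (hTL i j hij _ (hdiff i j hij).1)
      refine ⟨c, fun h => (hdiff i j hij).2 (hT ?_), hc.symm⟩
      rw [← hc, h, zero_smul, map_zero]
    choose! lam hlam hlamT using hscal
    have htriple : ∀ i j l, i ≠ j → j ≠ l → i ≠ l → lam i j = lam j l ∧ lam i j = lam i l := by
      intro i j l hij hjl hil
      have h := hlamT i l hil
      rw [show v i - v l = (v i - v j) + (v j - v l) by abel, map_add, hlamT i j hij, hlamT j l hjl,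
        show v (σ i) - v (σ l) = (v (σ i) - v (σ j)) + (v (σ j) - v (σ l)) by abel] at h
      obtain ⟨e1, e2⟩ := hpairLI (σ i) (σ j) (σ l) (σ.injective.ne hij) (σ.injective.ne hjl) (σ.injective.ne hil)
        (lam i j - lam i l) (lam j l - lam i l) (by linear_combination (norm := module) h)
      rw [sub_eq_zero] at e1 e2
      exact ⟨e1.trans e2.symm, e1⟩
    have hbase : ∀ i, T (v i - v z₀) = lam z₁ z₀ • (v (σ i) - v (σ z₀)) := by
      intro i
      by_cases hi : i = z₀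
      · subst hi; simp
      by_cases hi1 : i = z₁
      · subst hi1; exact hlamT _ _ hi
      obtain ⟨e1, e2⟩ := htriple z₁ i z₀ (Ne.symm hi1) hi h01.symm
      rw [hlamT i z₀ hi, ← e1, e2]
    rw [LinearMap.mem_ker] at ha2 ⊢
    simp only [Φ, Fintype.linearCombination_apply] at ha2 ⊢
    have h1 : ∑ i, a i • v (σ i) = ∑ i, a i • (v (σ i) - v (σ z₀)) := by
      simp only [smul_sub, Finset.sum_sub_distrib, ← Finset.sum_smul, ha1, zero_smul, sub_zero]
    have h3 : lam z₁ z₀ • (∑ i, a i • v (σ i)) = 0 := by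
      rw [h1, Finset.smul_sum, Finset.sum_congr rfl fun i _ => show lam z₁ z₀ • a i • (v (σ i) - v (σ z₀)) =
        T (a i • (v i - v z₀)) by rw [smul_comm, ← hbase, map_smul], ← map_sum]
      simp only [smul_sub, Finset.sum_sub_distrib, ← Finset.sum_smul, ha1, zero_smul, sub_zero, ha2, map_zero]
    rw [← Equiv.sum_comp σ]
    simp only [Equiv.symm_apply_apply]
    exact (smul_eq_zero.1 h3).resolve_left (hlam _ _ h01.symm)
  -- the kernel consists of constants
  have hconst : ∀ a ∈ N, ∀ i j, a i = a j := by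
    rcases const_or_diff hr N (fun a ha => (hS a).symm.trans (Submodule.mem_inf.1 ha).1) hinv with h | ⟨i, j, hij, hm⟩
    · exact h
    · exfalso
      refine (hdiff i j hij).2 ?_
      have h := (Submodule.mem_inf.1 hm).2
      simpa [LinearMap.mem_ker, Φ, map_sub, Fintype.linearCombination_apply_single] using h
  have hN : finrank k N ≤ if p ∣ r then 1 else 0 := by
    split_ifs with hp
    · refine (Submodule.finrank_mono (show N ≤ Submodule.span k {fun _ => (1 : k)} from fun a ha => ?_)).trans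
        ((finrank_span_singleton (fun h => one_ne_zero (congrFun h z₀))).le)
      exact Submodule.mem_span_singleton.2 ⟨a z₀, funext fun i => by
        rw [Pi.smul_apply, smul_eq_mul, mul_one]; exact hconst a ha z₀ i⟩
    · rw [Nat.le_zero, Submodule.finrank_eq_zero, eq_bot_iff]
      intro a ha
      have h1 : ∑ i, a i = 0 := (hS a).symm.trans (Submodule.mem_inf.1 ha).1
      rw [show ∑ i, a i = (r : k) * a z₀ by
        rw [Finset.sum_congr rfl fun i _ => hconst a ha i z₀]; simp] at h1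
      have h2 : (r : k) ≠ 0 := fun h => hp ((CharP.cast_eq_zero_iff k p r).1 h)
      exact funext fun i => (hconst a ha i z₀).trans ((mul_eq_zero.1 h1).resolve_left h2)
  have h1 : finrank k (LinearMap.range S) + finrank k (LinearMap.ker S) = r := by
    rw [LinearMap.finrank_range_add_finrank_ker, finrank_fin_fun]
  have h2 : finrank k (LinearMap.range S) ≤ 1 := (Submodule.finrank_le _).trans (finrank_self k).le
  let Ψ := Φ.comp (LinearMap.ker S).subtype
  have h3 : finrank k (LinearMap.range Ψ) + finrank k (LinearMap.ker Ψ) = finrank k (LinearMap.ker S) :=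
    LinearMap.finrank_range_add_finrank_ker Ψ
  have h4 : finrank k (LinearMap.ker Ψ) ≤ finrank k N := by
    rw [← Submodule.finrank_map_subtype_eq (LinearMap.ker S) (LinearMap.ker Ψ)]
    refine Submodule.finrank_mono ?_
    rintro _ ⟨a, ha, rfl⟩
    exact Submodule.mem_inf.2 ⟨a.2, ha⟩
  have h5 := Submodule.finrank_le (LinearMap.range Ψ)
  omega

end CfsgLib.Classes.AltSections
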