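import Mathlib
import Cfsg.Agent.Lib.Classes.AltSections.Kill

/-!
Counting with orbits of weights; the pair of disjoint five cycles.
-/

set_option autoImplicit false
set_option linter.unusedSectionVars false
set_option maxRecDepth 4000

open Module
open Fin.NatCast

namespace CfsgLib.Classes.AltSections

/-- The doubling move. -/
def doubling (ℓ : ℕ) (a : ZMod ℓ) : List ((Fin 1 → Fin 1) × (Fin 1 → ZMod ℓ)) := [(id, fun _ => a)]

theorem orbit_five : ∀ w : Fin 1 → ZMod 5, w 0 ≠ 0 →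
    (orbitN (doubling 5 2) w 3).card = 4 ∧ ∀ x ∈ orbitN (doubling 5 2) w 3, x 0 ≠ 0 := by decide

theorem orbit_seven : ∀ w : Fin 1 → ZMod 7, w 0 ≠ 0 →
    (orbitN (doubling 7 3) w 5).card = 6 ∧ ∀ x ∈ orbitN (doubling 7 3) w 5, x 0 ≠ 0 := by decide

theorem orbit_three : ∀ w : Fin 1 → ZMod 3, w 0 ≠ 0 →
    (orbitN (doubling 3 2) w 1).card = 2 ∧ ∀ x ∈ orbitN (doubling 3 2) w 1, x 0 ≠ 0 := by decide

namespace Cover

variable {k V : Type} [Field k] [AddCommGroup V] [Module k V] {r : ℕ} (C : Cover k V r) [Nontrivial V]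
  [IsAlgClosed k] [FiniteDimensional k V]

theorem card_mul_wt_le {ℓ s : ℕ} [NeZero ℓ] (xs : Fin s → C.H) {ζ : k} (hζ : IsPrimitiveRoot ζ ℓ)
    (gs : List ((Fin s → Fin s) × (Fin s → ZMod ℓ)))
    (hgs : ∀ g ∈ gs, ∀ w, finrank k (C.wt xs ζ w) ≤ finrank k (C.wt xs ζ (act g w))) (w : Fin s → ZMod ℓ) (N : ℕ)
    (U : Submodule k V) (hU : ∀ x ∈ orbitN gs w N, C.wt xs ζ x ≤ U) :
    (orbitN gs w N).card * finrank k (C.wt xs ζ w) ≤ finrank k U := by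
  refine le_trans ?_ (C.sum_wt_le xs hζ (orbitN gs w N) U hU)
  rw [← smul_eq_mul, ← Finset.sum_const]
  exact Finset.sum_le_sum (le_of_mem_orbitN (fun w => finrank k (C.wt xs ζ w)) gs hgs w N)

theorem exists_wt_ne_bot {ℓ : ℕ} [NeZero ℓ] (hℓ : (ℓ : k) ≠ 0) {ζ : k} (hζ : IsPrimitiveRoot ζ ℓ) {x : C.H}
    (hx : x ^ ℓ = 1) (hp : C.perm x ≠ 1) : ∃ w : Fin 1 → ZMod ℓ, w 0 ≠ 0 ∧ C.wt ![x] ζ w ≠ ⊥ := by
  by_contra! h
  refine C.moved_ne_bot hp (eq_bot_iff.2 ?_)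
  exact C.moved_le_of_wt hℓ hζ (xs := ![x]) (fun i => by fin_cases i; exact hx)
    (fun i j => by fin_cases i; fin_cases j; exact Commute.refl _) 0 ⊥ fun w hw => (h w hw).le

/-- The eigenspaces of a cycle of length three, five or seven have equal dimensions. -/
theorem single_facts (hr : 9 ≤ r) {ℓ : ℕ} [hℓ : Fact ℓ.Prime] (hodd : Odd ℓ) (hℓr : ℓ + 2 ≤ r) (hℓk : (ℓ : k) ≠ 0)
    (f : Fin ℓ ↪ Fin r) {ζ : k} (hζ : IsPrimitiveRoot ζ ℓ) (π : Equiv.Perm (Fin ℓ)) (a : ZMod ℓ) (N : ℕ)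
    (hdec : π * finRotate ℓ * π⁻¹ = finRotate ℓ ^ a.val)
    (horb : ∀ w : Fin 1 → ZMod ℓ, w 0 ≠ 0 →
      (orbitN (doubling ℓ a) w N).card = ℓ - 1 ∧ ∀ x ∈ orbitN (doubling ℓ a) w N, x 0 ≠ 0) :
    (∀ w : Fin 1 → ZMod ℓ, w 0 ≠ 0 →
      (ℓ - 1) * finrank k (C.wt ![C.cyc f] ζ w) ≤ finrank k (C.moved (C.cyc f))) ∧
    ℓ - 1 ≤ finrank k (C.moved (C.cyc f)) := by
  have : NeZero ℓ := ⟨hℓ.out.ne_zero⟩
  have h1 : ∀ w : Fin 1 → ZMod ℓ, w 0 ≠ 0 →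
      (ℓ - 1) * finrank k (C.wt ![C.cyc f] ζ w) ≤ finrank k (C.moved (C.cyc f)) := by
    intro w hw
    rw [← (horb w hw).1]
    refine C.card_mul_wt_le _ hζ _ (fun g hg v => ?_) w N _ fun x hx => ?_
    · rw [doubling, List.mem_singleton] at hg
      subst hg
      exact C.wt_single_le hr hodd hℓr f hζ π a hdec v
    · exact C.exists_wt_mem_moved hζ (xs := ![C.cyc f]) 0 ((horb w hw).2 x hx)
  refine ⟨h1, ?_⟩
  obtain ⟨w, hw, hne⟩ := C.exists_wt_ne_bot hℓk hζ (C.cyc_spec hodd hℓr f).1.1 (C.perm_cyc_ne_one hr hodd hℓr f)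
  exact le_trans (Nat.le_mul_of_pos_right _ (Submodule.one_le_finrank_iff.2 hne)) (h1 w hw)

/-- Moves of weights coming from small permutations. -/
theorem block_move_le (hr : 9 ≤ r) {ℓ s m : ℕ} [hℓ : Fact ℓ.Prime] (hodd : Odd ℓ) (hℓr : ℓ + 2 ≤ r)
    (F : Fin m ↪ Fin r) (B : Fin s → Fin ℓ ↪ Fin m) {ζ : k} (hζ : IsPrimitiveRoot ζ ℓ) (e : Equiv.Perm (Fin m))
    (he : Equiv.Perm.sign e = 1) (g : (Fin s → Fin s) × (Fin s → ZMod ℓ))
    (hdec : ∀ j, e⁻¹ * (finRotate ℓ).viaFintypeEmbedding (B j) * e =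
      (finRotate ℓ).viaFintypeEmbedding (B (g.1 j)) ^ (g.2 j).val)
    (w : Fin s → ZMod ℓ) :
    finrank k (C.wt (fun j => C.cyc ((B j).trans F)) ζ w) ≤
      finrank k (C.wt (fun j => C.cyc ((B j).trans F)) ζ (act g w)) := by
  have : NeZero ℓ := ⟨hℓ.out.ne_zero⟩
  obtain ⟨h, hh⟩ := C.exists_perm (σ := phi F e) (by rw [sign_phi, he])
  refine C.finrank_wt_le hζ (h := h) (fun j => ?_) w
  have hj := C.cyc_conj hr hodd hℓr (h := h⁻¹) (f := (B j).trans F) (g := (B (g.1 j)).trans F) (s := (g.2 j).val)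
    (by
      rw [map_inv, hh, ← map_inv]
      exact conj_phi_trans F (B j) (B (g.1 j)) e⁻¹ _ _ (by rw [inv_inv]; exact hdec j))
  rwa [inv_inv] at hj

theorem blocks_spec {ℓ s m : ℕ} (hr : 9 ≤ r) [hℓ : Fact ℓ.Prime] (hodd : Odd ℓ) (hℓr : ℓ + 2 ≤ r)
    (F : Fin m ↪ Fin r) (B : Fin s → Fin ℓ ↪ Fin m) (hdis : ∀ i j, i ≠ j → ∀ a b, B i a ≠ B j b) :
    (∀ i, (C.cyc ((B i).trans F)) ^ ℓ = 1) ∧
      ∀ i j, Commute (C.cyc ((B i).trans F)) (C.cyc ((B j).trans F)) := by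
  refine ⟨fun i => (C.cyc_spec hodd hℓr _).1.1, fun i j => ?_⟩
  by_cases h : i = j
  · rw [h]
  refine C.cyc_commute hr hodd hℓr _ ?_
  rw [(C.cyc_spec hodd hℓr _).2]
  exact phi_commute _ _ (fun a b e => hdis i j h a b (F.injective e)) _ _

end Cover

/-- Two disjoint five cycles among ten points. -/
def fiveBlocks : Fin 2 → Fin 5 ↪ Fin 10 :=
  ![⟨![0, 1, 2, 3, 4], by decide⟩, ⟨![5, 6, 7, 8, 9], by decide⟩]

/-- The flip of the first five cycle. -/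
def fiveFlip : Equiv.Perm (Fin 10) := Equiv.swap 1 4 * Equiv.swap 2 3

/-- Exchange of the blocks combined with doubling. -/
def fiveTurn : Equiv.Perm (Fin 10) :=
  Equiv.swap 0 5 * Equiv.swap 1 6 * Equiv.swap 2 7 * Equiv.swap 3 8 * Equiv.swap 4 9 *
    (Equiv.swap 1 3 * Equiv.swap 3 4 * Equiv.swap 4 2)

/-- The moves of pairs of weights. -/
def fiveMoves : List ((Fin 2 → Fin 2) × (Fin 2 → ZMod 5)) :=
  [(id, ![-1, 1]), (![1, 0], ![1, 2])]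

theorem orbit_pair : ∀ w : Fin 2 → ZMod 5,
    (w 0 ≠ 0 → w 1 ≠ 0 → 16 ≤ (orbitN fiveMoves w 9).card) := by decide +kernel

/-- Three disjoint three cycles among nine points. -/
def threeBlocks : Fin 3 → Fin 3 ↪ Fin 9 :=
  ![⟨![0, 1, 2], by decide⟩, ⟨![3, 4, 5], by decide⟩, ⟨![6, 7, 8], by decide⟩]

/-- Cyclic exchange of the blocks. -/
def threeShift : Equiv.Perm (Fin 9) :=
  (Equiv.swap 0 3 * Equiv.swap 3 6) * ((Equiv.swap 1 4 * Equiv.swap 4 7) * (Equiv.swap 2 5 * Equiv.swap 5 8))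

/-- Exchange of two blocks combined with a flip. -/
def threeSwap : Equiv.Perm (Fin 9) := Equiv.swap 0 3 * Equiv.swap 1 4 * Equiv.swap 2 5 * Equiv.swap 7 8

/-- Two flips. -/
def threeFlip : Equiv.Perm (Fin 9) := Equiv.swap 1 2 * Equiv.swap 4 5

/-- The moves of triples of weights. -/
def threeMoves : List ((Fin 3 → Fin 3) × (Fin 3 → ZMod 3)) :=
  [(![2, 0, 1], fun _ => 1), (![1, 0, 2], ![1, 1, 2]), (id, ![2, 2, 1])]

/-- The number of nonzero coordinates. -/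
def weightSize (w : Fin 3 → ZMod 3) : ℕ := (Finset.univ.filter fun i => w i ≠ 0).card

theorem orbit_triple : ∀ w : Fin 3 → ZMod 3,
    (weightSize w = 1 → 6 ≤ (orbitN threeMoves w 5).card) ∧
    (weightSize w = 2 → 12 ≤ (orbitN threeMoves w 5).card) ∧
    (weightSize w = 3 → 8 ≤ (orbitN threeMoves w 5).card) ∧
    ∀ x ∈ orbitN threeMoves w 5, weightSize x = weightSize w := by decide +kernel

end CfsgLib.Classes.AltSections
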