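import Mathlib
import Cfsg.Agent.Lib.Classes.AltSections.RankTools

/-!
In a projective representation of small degree the canonical lift of a three cycle moves at most two dimensions.
-/

set_option autoImplicit false
set_option linter.unusedSectionVars false
set_option maxRecDepth 4000

open Module
open Fin.NatCast

namespace CfsgLib.Classes.AltSections

theorem rot_three_decide : Equiv.swap (1 : Fin 3) 2 * finRotate 3 * (Equiv.swap (1 : Fin 3) 2)⁻¹ =
    finRotate 3 ^ (2 : ZMod 3).val := by decide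

/-- Doubling on five points. -/
def mulTwo : Equiv.Perm (Fin 5) := Equiv.swap 1 2 * Equiv.swap 2 4 * Equiv.swap 4 3

/-- Tripling on seven points. -/
def mulThree : Equiv.Perm (Fin 7) :=
  Equiv.swap 1 3 * Equiv.swap 3 2 * Equiv.swap 2 6 * Equiv.swap 6 4 * Equiv.swap 4 5

theorem rot_five_decide : mulTwo * finRotate 5 * mulTwo⁻¹ = finRotate 5 ^ (2 : ZMod 5).val := by decide

theorem rot_seven_decide : mulThree * finRotate 7 * mulThree⁻¹ = finRotate 7 ^ (3 : ZMod 7).val := by decide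

theorem orbit_pair_one : ∀ w : Fin 2 → ZMod 5,
    (w 0 ≠ 0 → w 1 = 0 → 8 ≤ (orbitN fiveMoves w 9).card) := by decide +kernel

theorem weightSize_pos : ∀ (w : Fin 3 → ZMod 3) (i : Fin 3), w i ≠ 0 →
    weightSize w = 1 ∨ weightSize w = 2 ∨ weightSize w = 3 := by decide +kernel

theorem weightSize_full : ∀ x : Fin 3 → ZMod 3, weightSize x = 3 → x 0 ≠ 0 := by decide +kernel

theorem weightSize_one : ∀ x : Fin 3 → ZMod 3, weightSize x = 1 → x 0 ≠ 0 → x = ![1, 0, 0] ∨ x = ![2, 0, 0] := by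
  decide +kernel

theorem weightSize_unit : weightSize ![1, 0, 0] = 1 ∧ weightSize ![2, 0, 0] = 1 := by decide +kernel

/-- The three cycle overlapping the second five cycle. -/
def tenTriple : Fin 3 ↪ Fin 10 := ⟨![5, 6, 7], by decide⟩

/-- The seven cycle among eleven points. -/
def elevenSeven : Fin 7 ↪ Fin 11 := ⟨![0, 1, 2, 3, 4, 5, 6], by decide⟩

/-- The three cycle among the other four points. -/
def elevenTriple : Fin 3 ↪ Fin 11 := ⟨![7, 8, 9], by decide⟩

namespace Cover

variable {k V : Type} [Field k] [AddCommGroup V] [Module k V] {r : ℕ} (C : Cover k V r) [Nontrivial V]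
  [IsAlgClosed k] [FiniteDimensional k V]

theorem wt_invariant {s ℓ : ℕ} {xs : Fin s → C.H} {ζ : k} {w : Fin s → ZMod ℓ} {h : C.H}
    (hc : ∀ i, Commute h (xs i)) : ∀ v ∈ C.wt xs ζ w, C.el h v ∈ C.wt xs ζ w := by
  intro v hv
  rw [C.mem_wt] at hv ⊢
  intro i
  rw [← Module.End.mul_apply, ← el_mul, ← (hc i).eq, el_mul, Module.End.mul_apply, hv i, map_smul]

theorem exists_zeta {ℓ : ℕ} (hℓ : (ℓ : k) ≠ 0) : ∃ ζ : k, IsPrimitiveRoot ζ ℓ := by
  have : NeZero (ℓ : k) := ⟨hℓ⟩
  exact HasEnoughRootsOfUnity.exists_primitiveRoot k ℓ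

/-- A cycle commutes with the elements over a disjoint permutation of few points. -/
theorem commute_cyc_small (hr : 9 ≤ r) {ℓ m : ℕ} [Fact ℓ.Prime] (hodd : Odd ℓ) (hℓr : ℓ + 2 ≤ r)
    (F : Fin m ↪ Fin r) (b : Fin ℓ ↪ Fin m) {h : C.H} (e : Equiv.Perm (Fin m)) (he : C.perm h = phi F e)
    (hdec : e * (finRotate ℓ).viaFintypeEmbedding b = (finRotate ℓ).viaFintypeEmbedding b * e) :
    Commute h (C.cyc (b.trans F)) := by
  refine C.cyc_commute hr hodd hℓr _ ?_
  rw [he, ← phi_trans, phi_eq_via b]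
  exact (show Commute e _ from hdec).map (phi F)

theorem exists_small_lift {m : ℕ} (F : Fin m ↪ Fin r) (e : Equiv.Perm (Fin m)) (he : Equiv.Perm.sign e = 1) :
    ∃ h : C.H, C.perm h = phi F e := C.exists_perm (by rw [sign_phi, he])

theorem invert_three_small (hr : 9 ≤ r) {m : ℕ} (F : Fin m ↪ Fin r) (b : Fin 3 ↪ Fin m) {h : C.H}
    (e : Equiv.Perm (Fin m)) (he : C.perm h = phi F e)
    (hdec : e * (finRotate 3).viaFintypeEmbedding b * e⁻¹ = (finRotate 3).viaFintypeEmbedding b ^ 2) :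
    h * C.cyc (b.trans F) * h⁻¹ = (C.cyc (b.trans F))⁻¹ := by
  have : Fact (Nat.Prime 3) := ⟨Nat.prime_three⟩
  rw [C.cyc_conj hr (ℓ := 3) (by decide) (by omega) (g := b.trans F) (s := 2)
    (by rw [he]; exact conj_phi_trans F b b e _ 2 hdec)]
  refine eq_inv_of_mul_eq_one_left ?_
  rw [← pow_succ]
  exact (C.cyc_spec (by decide) (by omega) _).1.1

theorem five_three (hr : 10 ≤ r) (hn : finrank k V ≤ 15) (h5 : (5 : k) ≠ 0) (F : Fin 10 ↪ Fin r) :
    C.moved (C.cyc ((fiveBlocks 0).trans F)) ≤ C.fixd (C.cyc (tenTriple.trans F)) ∧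
      4 ≤ finrank k (C.moved (C.cyc ((fiveBlocks 0).trans F))) := by
  have : Fact (Nat.Prime 5) := ⟨by norm_num⟩
  have : Fact (Nat.Prime 3) := ⟨Nat.prime_three⟩
  have h5' : ((5 : ℕ) : k) ≠ 0 := by simpa using h5
  obtain ⟨ζ, hζ⟩ := exists_zeta h5'
  have hdis : ∀ i j, i ≠ j → ∀ a b, fiveBlocks i a ≠ fiveBlocks j b := by decide
  obtain ⟨hpow, hcomm⟩ := C.blocks_spec (by omega) (by decide) (by omega) F fiveBlocks hdis
  set xs : Fin 2 → C.H := fun j => C.cyc ((fiveBlocks j).trans F) with hxs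
  have hmoves : ∀ g ∈ fiveMoves, ∀ w, finrank k (C.wt xs ζ w) ≤ finrank k (C.wt xs ζ (act g w)) := by
    intro g hg w
    rcases List.mem_cons.1 hg with rfl | hg
    · exact C.block_move_le (by omega) (by decide) (by omega) F fiveBlocks hζ fiveFlip (by decide) _ (by decide) w
    rcases List.mem_cons.1 hg with rfl | hg
    · exact C.block_move_le (by omega) (by decide) (by omega) F fiveBlocks hζ fiveTurn (by decide) _ (by decide) w
    simp at hg
  have hcount : ∀ w c, c ≤ (orbitN fiveMoves w 9).card → c * finrank k (C.wt xs ζ w) ≤ 15 := by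
    intro w c hc
    refine le_trans (le_trans ?_ (C.card_mul_wt_le xs hζ fiveMoves hmoves w 9 ⊤ fun _ _ => le_top)) ?_
    · exact Nat.mul_le_mul hc le_rfl
    · rw [finrank_top]; exact hn
  have hkill : C.moved (xs 0) ≤ C.fixd (xs 1) := by
    refine C.moved_le_of_wt h5' hζ hpow hcomm 0 _ fun w hw => ?_
    by_cases hw1 : w 1 = 0
    · intro v hv
      rw [C.mem_fixd, C.mem_wt.1 hv 1, hw1, ZMod.val_zero, pow_zero, one_smul]
    · have := hcount w 16 (orbit_pair w hw hw1)
      rw [show C.wt xs ζ w = ⊥ from Submodule.finrank_eq_zero.1 (by omega)]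
      exact bot_le
  have hx0 : xs 0 = C.cyc ((fiveBlocks 0).trans F) := rfl
  obtain ⟨-, hlow⟩ := C.single_facts (by omega) (by decide) (by omega) h5' ((fiveBlocks 0).trans F) hζ mulTwo 2 3
    rot_five_decide orbit_five
  refine ⟨?_, hlow⟩
  obtain ⟨g, hg⟩ := C.exists_small_lift F (Equiv.swap 6 7 * Equiv.swap 8 9) (by decide)
  have hgc := C.commute_cyc_small (by omega) (by decide) (by omega) F (fiveBlocks 0) _ hg (by decide)
  have hgt := C.invert_three_small (by omega) F tenTriple _ hg (by decide)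
  have hct : Commute (C.cyc (tenTriple.trans F)) (C.cyc ((fiveBlocks 0).trans F)) :=
    C.commute_cyc_small (by omega) (by decide) (by omega) F (fiveBlocks 0) ((finRotate 3).viaFintypeEmbedding tenTriple)
      (by rw [(C.cyc_spec (by decide) (by omega) _).2, ← phi_trans, phi_eq_via tenTriple]) (by decide)
  refine C.moved_le_of_wt h5' hζ (xs := ![C.cyc ((fiveBlocks 0).trans F)]) (fun i => by fin_cases i; exact hpow 0)
    (fun i j => by fin_cases i; fin_cases j; exact Commute.refl _) 0 _ fun w hw => ?_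
  have hle : C.wt ![C.cyc ((fiveBlocks 0).trans F)] ζ w ≤ C.wt xs ζ ![w 0, 0] := by
    intro v hv
    rw [C.mem_wt]
    intro i
    fin_cases i
    · exact C.mem_wt.1 hv 0
    · have h := C.mem_fixd.1 (hkill (C.exists_wt_mem_moved hζ (xs := ![C.cyc ((fiveBlocks 0).trans F)]) 0 hw hv))
      simpa using h
  have h1 : finrank k (C.wt ![C.cyc ((fiveBlocks 0).trans F)] ζ w) ≤ 1 := by
    have := hcount ![w 0, 0] 8 (orbit_pair_one _ (by simpa using hw) (by simp))
    have := Submodule.finrank_mono hle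
    omega
  have hinv : ∀ h : C.H, Commute h (C.cyc ((fiveBlocks 0).trans F)) →
      ∀ v ∈ C.wt ![C.cyc ((fiveBlocks 0).trans F)] ζ w, C.el h v ∈ C.wt ![C.cyc ((fiveBlocks 0).trans F)] ζ w :=
    fun h hh => C.wt_invariant (fun i => by fin_cases i; exact hh)
  exact C.fixed_of_scalarOn (ℓ := 3) (by decide) (C.cyc_spec (by decide) (by omega) _).1.1 hgt (hinv g hgc)
    (C.scalarOn_of_finrank_le_one h1 (hinv _ hct))

/-- In characteristic three a three cycle fixes the eigenvectors of a disjoint cycle with one dimensional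
eigenspaces. -/
theorem line_fixd (hr : 9 ≤ r) [CharP k 3] {ℓ : ℕ} [hℓ : Fact ℓ.Prime] (hodd : Odd ℓ) (hℓr : ℓ + 2 ≤ r)
    (hℓk : (ℓ : k) ≠ 0) (π : Equiv.Perm (Fin ℓ)) (a : ZMod ℓ) (N : ℕ)
    (hdec : π * finRotate ℓ * π⁻¹ = finRotate ℓ ^ a.val)
    (horb : ∀ w : Fin 1 → ZMod ℓ, w 0 ≠ 0 →
      (orbitN (doubling ℓ a) w N).card = ℓ - 1 ∧ ∀ x ∈ orbitN (doubling ℓ a) w N, x 0 ≠ 0)
    (hn : finrank k V < 2 * (ℓ - 1)) (f : Fin ℓ ↪ Fin r) (g : Fin 3 ↪ Fin r) (hd : ∀ i j, g i ≠ f j) :
    C.moved (C.cyc f) ≤ C.fixd (C.cyc g) ∧ ℓ - 1 ≤ finrank k (C.moved (C.cyc f)) := by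
  have : NeZero ℓ := ⟨hℓ.out.ne_zero⟩
  have : Fact (Nat.Prime 3) := ⟨Nat.prime_three⟩
  obtain ⟨ζ, hζ⟩ := exists_zeta hℓk
  obtain ⟨hdim, hlow⟩ := C.single_facts hr hodd hℓr hℓk f hζ π a N hdec horb
  refine ⟨?_, hlow⟩
  have hgf : Commute (C.cyc g) (C.cyc f) := C.cyc_commute hr hodd hℓr f (by
    rw [(C.cyc_spec (by decide) (by omega) g).2]; exact phi_commute f g hd _ _)
  refine C.moved_le_of_wt hℓk hζ (xs := ![C.cyc f]) (fun i => by fin_cases i; exact (C.cyc_spec hodd hℓr f).1.1)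
    (fun i j => by fin_cases i; fin_cases j; exact Commute.refl _) 0 _ fun w hw => ?_
  have h1 := hdim w hw
  have h2 := Submodule.finrank_le (C.moved (C.cyc f))
  have h3 : finrank k (C.wt ![C.cyc f] ζ w) ≤ 1 := by
    by_contra h
    have := Nat.mul_le_mul (le_refl (ℓ - 1)) (show 2 ≤ finrank k (C.wt ![C.cyc f] ζ w) by omega)
    omega
  exact C.fixed_of_scalarOn_char 3 (C.cyc_spec (by decide) (by omega) g).1.1
    (C.scalarOn_of_finrank_le_one h3 (C.wt_invariant fun i => by fin_cases i; exact hgf))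

/-- The weights of three disjoint three cycles. -/
theorem triple_blocks (hr : 9 ≤ r) (hn : finrank k V ≤ 11) (h3 : (3 : k) ≠ 0) (F : Fin 9 ↪ Fin r) :
    (finrank k (C.moved (C.cyc ((threeBlocks 0).trans F))) ≤ 2 ∧ 6 ≤ finrank k V) ∨
    (8 ≤ finrank k (C.moved (C.cyc ((threeBlocks 0).trans F))) ∧
      C.moved (C.cyc ((threeBlocks 1).trans F)) ≤ C.moved (C.cyc ((threeBlocks 0).trans F))) := by
  have : Fact (Nat.Prime 3) := ⟨Nat.prime_three⟩
  have h3' : ((3 : ℕ) : k) ≠ 0 := by simpa using h3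
  obtain ⟨ζ, hζ⟩ := exists_zeta h3'
  have hdis : ∀ i j, i ≠ j → ∀ a b, threeBlocks i a ≠ threeBlocks j b := by decide
  obtain ⟨hpow, hcomm⟩ := C.blocks_spec hr (by decide) (by omega) F threeBlocks hdis
  set xs : Fin 3 → C.H := fun j => C.cyc ((threeBlocks j).trans F) with hxs
  let d : (Fin 3 → ZMod 3) → ℕ := fun w => finrank k (C.wt xs ζ w)
  have hmoves : ∀ g ∈ threeMoves, ∀ w, d w ≤ d (act g w) := by
    intro g hg w
    rcases List.mem_cons.1 hg with rfl | hg
    · exact C.block_move_le hr (by decide) (by omega) F threeBlocks hζ threeShift (by decide) _ (by decide) w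
    rcases List.mem_cons.1 hg with rfl | hg
    · exact C.block_move_le hr (by decide) (by omega) F threeBlocks hζ threeSwap (by decide) _ (by decide) w
    rcases List.mem_cons.1 hg with rfl | hg
    · exact C.block_move_le hr (by decide) (by omega) F threeBlocks hζ threeFlip (by decide) _ (by decide) w
    simp at hg
  have hcount : ∀ w, ∀ U : Submodule k V, (∀ x ∈ orbitN threeMoves w 5, C.wt xs ζ x ≤ U) →
      (orbitN threeMoves w 5).card * d w ≤ finrank k U :=
    fun w U hU => C.card_mul_wt_le xs hζ threeMoves hmoves w 5 U hU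
  have hcount' : ∀ w c, c ≤ (orbitN threeMoves w 5).card → c * d w ≤ finrank k V := fun w c hc =>
    le_trans (Nat.mul_le_mul hc le_rfl)
      (le_trans (hcount w ⊤ fun _ _ => le_top) (Submodule.finrank_le _))
  have htwo : ∀ w, weightSize w = 2 → C.wt xs ζ w = ⊥ := fun w hw =>
    Submodule.finrank_eq_zero.1 (by have := hcount' w 12 ((orbit_triple w).2.1 hw); change d w = 0; omega)
  have hsize := weightSize_pos
  by_cases hfull : ∃ w, weightSize w = 3 ∧ C.wt xs ζ w ≠ ⊥
  · obtain ⟨w, hw, hne⟩ := hfull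
    have hdw : 1 ≤ d w := Submodule.one_le_finrank_iff.2 hne
    have hnz := weightSize_full
    refine Or.inr ⟨?_, ?_⟩
    · exact le_trans (le_trans ((orbit_triple w).2.2.1 hw) (Nat.le_mul_of_pos_right _ hdw))
        (hcount w _ fun x hx => C.exists_wt_mem_moved hζ 0 (hnz x (((orbit_triple w).2.2.2 x hx).trans hw)))
    refine C.moved_le_of_wt h3' hζ hpow hcomm 1 _ fun x hx => ?_
    rcases hsize x 1 hx with h | h | h
    · suffices h0 : d x = 0 by
        rw [show C.wt xs ζ x = ⊥ from Submodule.finrank_eq_zero.1 h0]; exact bot_le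
      by_contra h0
      have hdis' : Disjoint (orbitN threeMoves w 5) (orbitN threeMoves x 5) := by
        rw [Finset.disjoint_left]
        intro y hy hy'
        have := ((orbit_triple w).2.2.2 y hy).symm.trans ((orbit_triple x).2.2.2 y hy')
        omega
      have hsum := C.sum_wt_le xs hζ (orbitN threeMoves w 5 ∪ orbitN threeMoves x 5) ⊤ fun _ _ => le_top
      rw [Finset.sum_union hdis', finrank_top] at hsum
      have e1 : 8 ≤ ∑ y ∈ orbitN threeMoves w 5, d y := by
        refine le_trans ?_ (Finset.sum_le_sum fun y hy => le_trans hdw (le_of_mem_orbitN d _ hmoves w 5 y hy))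
        simpa using (orbit_triple w).2.2.1 hw
      have e2 : 6 ≤ ∑ y ∈ orbitN threeMoves x 5, d y := by
        refine le_trans ?_ (Finset.sum_le_sum fun y hy =>
          le_trans (show 1 ≤ d x by omega) (le_of_mem_orbitN d _ hmoves x 5 y hy))
        simpa using (orbit_triple x).1 h
      simp only [d] at e1 e2
      omega
    · rw [htwo x h]; exact bot_le
    · exact C.exists_wt_mem_moved hζ 0 (hnz x h)
  push Not at hfull
  have hone := weightSize_one
  have hle : C.moved (xs 0) ≤ C.wt xs ζ (![1, 0, 0] : Fin 3 → ZMod 3) ⊔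
      C.wt xs ζ (![2, 0, 0] : Fin 3 → ZMod 3) := by
    refine C.moved_le_of_wt h3' hζ hpow hcomm 0 _ fun x hx => ?_
    rcases hsize x 0 hx with h | h | h
    · rcases hone x h hx with rfl | rfl
      · exact le_sup_left
      · exact le_sup_right
    · rw [htwo x h]; exact bot_le
    · rw [hfull x h]; exact bot_le
  have e1 := hcount' ![1, 0, 0] 6 ((orbit_triple _).1 weightSize_unit.1)
  have e2 := hcount' ![2, 0, 0] 6 ((orbit_triple _).1 weightSize_unit.2)
  have hbound := (Submodule.finrank_mono hle).trans (Submodule.finrank_add_le_finrank_add_finrank _ _)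
  have hpos : 1 ≤ finrank k (C.moved (xs 0)) :=
    Submodule.one_le_finrank_iff.2 (C.moved_ne_bot (C.perm_cyc_ne_one hr (by decide) (by omega) _))
  simp only [d] at e1 e2
  exact Or.inl ⟨show finrank k (C.moved (xs 0)) ≤ 2 by omega, by omega⟩

end Cover

end CfsgLib.Classes.AltSections
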