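import Mathlib
import Cfsg.Agent.Lib.Classes.AltSections.Rank

/-!
The rank of canonical lifts of three cycles: the remaining small cases and the assembly.
-/

set_option autoImplicit false
set_option linter.unusedSectionVars false
set_option maxRecDepth 4000

open Module
open Fin.NatCast

namespace CfsgLib.Classes.AltSections

/-- The double transposition on four of eleven points. -/
def elevenA : Equiv.Perm (Fin 11) := Equiv.swap 7 8 * Equiv.swap 9 10

theorem elevenA_facts :
    elevenA * (finRotate 7).viaFintypeEmbedding elevenSeven = (finRotate 7).viaFintypeEmbedding elevenSeven * elevenA ∧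
    (finRotate 3).viaFintypeEmbedding elevenTriple * (finRotate 7).viaFintypeEmbedding elevenSeven =
      (finRotate 7).viaFintypeEmbedding elevenSeven * (finRotate 3).viaFintypeEmbedding elevenTriple ∧
    (∀ t, t = (finRotate 3).viaFintypeEmbedding elevenTriple →
      elevenA * (t * elevenA * t⁻¹) = (t * elevenA * t⁻¹) * elevenA ∧
      (t * elevenA * t⁻¹ * elevenA⁻¹) * (t * elevenA * t⁻¹ * elevenA⁻¹) = 1 ∧
      t * elevenA * t⁻¹ * elevenA⁻¹ ≠ 1) := by
  refine ⟨by decide, by decide, ?_⟩
  rintro t rfl
  decide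

theorem blocks_six : ∀ i : Fin 3,
    threeBlocks 0 i = Fin.castLEEmb (show 6 ≤ 9 by omega) (finSumFinEquiv (Sum.inl i : Fin 3 ⊕ Fin 3)) ∧
      threeBlocks 1 i = Fin.castLEEmb (show 6 ≤ 9 by omega) (finSumFinEquiv (Sum.inr i : Fin 3 ⊕ Fin 3)) := by decide

theorem blocks_eight :
    (∀ i : Fin 5, fiveBlocks 0 i = Fin.castLEEmb (show 8 ≤ 10 by omega) (finSumFinEquiv (Sum.inl i : Fin 5 ⊕ Fin 3))) ∧
      ∀ i : Fin 3, tenTriple i = Fin.castLEEmb (show 8 ≤ 10 by omega) (finSumFinEquiv (Sum.inr i : Fin 5 ⊕ Fin 3)) := by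
  decide

theorem five_ne_triple : ∀ i j, fiveBlocks 0 i ≠ tenTriple j := by decide

theorem three_weights : (∀ x : Fin 1 → ZMod 3, x 0 ≠ 0 → x = ![1] ∨ x = ![2]) ∧
    (![1] : Fin 1 → ZMod 3) 0 ≠ 0 ∧ (![2] : Fin 1 → ZMod 3) 0 ≠ 0 := by decide +kernel

theorem exists_emb_avoiding {r m : ℕ} (s : Finset (Fin r)) (h : s.card + m ≤ r) :
    ∃ g : Fin m ↪ Fin r, ∀ i, g i ∉ s := by
  classical
  have hc : m ≤ sᶜ.card := by rw [Finset.card_compl, Fintype.card_fin]; omega
  obtain ⟨u, hu, hcu⟩ := Finset.exists_subset_card_eq hc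
  exact ⟨(u.orderEmbOfFin hcu).toEmbedding, fun i => Finset.mem_compl.1 (hu (Finset.orderEmbOfFin_mem u hcu i))⟩

theorem exists_compl_factor {a r l : ℕ} (f : Fin a ↪ Fin r) (f' : Fin l ↪ Fin r) (hd : ∀ i j, f' i ≠ f j) :
    ∃ (g : Fin (r - a) ↪ Fin r) (b : Fin l ↪ Fin (r - a)), (∀ i j, g i ≠ f j) ∧ b.trans g = f' := by
  classical
  obtain ⟨g, hg⟩ := exists_compl f
  have hrange : Finset.univ.image g = (Finset.univ.image f)ᶜ := by
    refine Finset.eq_of_subset_of_card_le ?_ ?_
    · intro x hx
      obtain ⟨i, -, rfl⟩ := Finset.mem_image.1 hx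
      simp only [Finset.mem_compl, Finset.mem_image, Finset.mem_univ, true_and, not_exists]
      exact fun j e => hg i j e.symm
    · rw [Finset.card_compl, Finset.card_image_of_injective _ f.injective, Finset.card_image_of_injective _ g.injective]
      simp
  have hex : ∀ i, ∃ j, g j = f' i := fun i => by
    have : f' i ∈ Finset.univ.image g := by
      rw [hrange]
      simp only [Finset.mem_compl, Finset.mem_image, Finset.mem_univ, true_and, not_exists]
      exact fun j e => hd i j e.symm
    obtain ⟨j, -, hj⟩ := Finset.mem_image.1 this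
    exact ⟨j, hj⟩
  choose b hb using hex
  refine ⟨g, ⟨b, fun i j e => f'.injective (by rw [← hb i, ← hb j, e])⟩, hg, ?_⟩
  exact Function.Embedding.ext hb

namespace Cover

variable {k V : Type} [Field k] [AddCommGroup V] [Module k V] {r : ℕ} (C : Cover k V r) [Nontrivial V]
  [IsAlgClosed k] [FiniteDimensional k V]

/-- The four group argument: a three cycle cannot be fixed point free in degree at most eleven. -/
theorem fixd_ne_bot (hr : 11 ≤ r) (hn : finrank k V ≤ 11) (h7 : (7 : k) ≠ 0) (h2' : (2 : k) ≠ 0)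
    (F : Fin 11 ↪ Fin r) : C.fixd (C.cyc (elevenTriple.trans F)) ≠ ⊥ := by
  classical
  intro hfix
  have : Fact (Nat.Prime 7) := ⟨by norm_num⟩
  have : Fact (Nat.Prime 3) := ⟨Nat.prime_three⟩
  have h7' : ((7 : ℕ) : k) ≠ 0 := by simpa using h7
  obtain ⟨hA, hT, hfacts⟩ := elevenA_facts
  obtain ⟨hcomP, hsqP, hneP⟩ := hfacts _ rfl
  obtain ⟨ζ, hζ⟩ := exists_zeta h7'
  set c := C.cyc (elevenSeven.trans F) with hc
  set t := C.cyc (elevenTriple.trans F) with ht
  obtain ⟨hdim, -⟩ := C.single_facts (by omega) (by decide) (by omega) h7' (elevenSeven.trans F) hζ mulThree 3 5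
    rot_seven_decide orbit_seven
  obtain ⟨w, hw, hne⟩ := C.exists_wt_ne_bot h7' hζ (C.cyc_spec (by decide) (by omega) (elevenSeven.trans F)).1.1
    (C.perm_cyc_ne_one (by omega) (by decide) (by omega) _)
  have hd1 : finrank k (C.wt ![c] ζ w) ≤ 1 := by
    rw [hc]
    have := hdim w hw
    have := Submodule.finrank_le (C.moved (C.cyc (elevenSeven.trans F)))
    omega
  have hcommc : ∀ u v : C.H, Commute u c → Commute v c → Commute (C.perm u) (C.perm v) → Commute u v := by
    intro u v hu hv huv
    obtain ⟨μ, hμ⟩ := C.exists_sc_conj huv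
    obtain ⟨x, hx, hx0⟩ := (Submodule.ne_bot_iff _).1 hne
    obtain ⟨a, ha⟩ := C.scalarOn_of_finrank_le_one hd1 (C.wt_invariant fun i => by fin_cases i; exact hu)
    obtain ⟨b, hb⟩ := C.scalarOn_of_finrank_le_one hd1 (C.wt_invariant fun i => by fin_cases i; exact hv)
    have e : u * v = C.sc μ * (v * u) := by rw [← mul_assoc, ← hμ]; group
    have e' := congrArg (fun z => C.el z x) e
    simp only [el_mul, Module.End.mul_apply, ha x hx, hb x hx, map_smul, el_sc, LinearMap.smul_apply,
      Module.End.one_apply, smul_smul] at e'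
    have hab : (a * b) • x ≠ 0 := by
      rw [mul_comm, ← smul_smul, ← ha x hx, ← map_smul, ← hb x hx, ← Module.End.mul_apply, ← el_mul]
      exact fun h => hx0 ((C.el_bijective (u * v)).1 (h.trans (map_zero _).symm))
    have hμ1 : (μ : k) = 1 := by
      refine smul_left_injective k hab ?_
      change (μ : k) • (a * b) • x = (1 : k) • (a * b) • x
      rw [one_smul, smul_smul]
      linear_combination (norm := module) -e'
    rw [show μ = 1 from Units.ext hμ1, map_one, one_mul] at e
    exact e
  obtain ⟨A, hA'⟩ := C.exists_small_lift F elevenA (by decide)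
  have htp : C.perm t = phi F ((finRotate 3).viaFintypeEmbedding elevenTriple) := by
    rw [ht, (C.cyc_spec (by decide) (by omega) _).2, ← phi_trans, phi_eq_via elevenTriple]
  have hAc : Commute A c := C.commute_cyc_small (by omega) (by decide) (by omega) F elevenSeven _ hA' hA
  have htc : Commute t c := C.commute_cyc_small (by omega) (by decide) (by omega) F elevenSeven _ htp hT
  have ht3 : t ^ 3 = 1 := (C.cyc_spec (by decide) (by omega) _).1.1
  set A1 := t * A * t⁻¹ with hA1
  set A2 := t * A1 * t⁻¹ with hA2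
  have hA1c : Commute A1 c := (htc.mul_left hAc).mul_left htc.inv_left
  have hA2c : Commute A2 c := (htc.mul_left hA1c).mul_left htc.inv_left
  have h01 : Commute A A1 := hcommc _ _ hAc hA1c (by
    rw [hA1, map_mul, map_mul, map_inv, hA', htp, ← map_inv, ← map_mul, ← map_mul]
    exact (show Commute elevenA _ from hcomP).map (phi F))
  have hconj : ∀ {u v : C.H}, Commute u v → Commute (t * u * t⁻¹) (t * v * t⁻¹) := fun h => by
    have := h.map (MulAut.conj t).toMonoidHom
    simpa [MulAut.conj_apply] using this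
  have h12 : Commute A1 A2 := hconj h01
  have hA3 : t * A2 * t⁻¹ = A := by
    have h3 : t * t * t = 1 := by rw [← ht3]; simp [pow_succ]
    calc t * A2 * t⁻¹ = (t * t * t) * A * (t * t * t)⁻¹ := by rw [hA2, hA1]; group
      _ = A := by rw [h3]; group
  have h20 : Commute A2 A := by simpa only [hA3] using hconj h12
  set e1 := A1 * A⁻¹ with he1
  set e2 := A2 * A1⁻¹ with he2
  set e3 := A * A2⁻¹ with he3
  have hte1 : t * e1 * t⁻¹ = e2 := by
    rw [he1, show t * (A1 * A⁻¹) * t⁻¹ = (t * A1 * t⁻¹) * (t * A * t⁻¹)⁻¹ by group, ← hA2, ← hA1, ← he2]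
  have hte2 : t * e2 * t⁻¹ = e3 := by
    rw [he2, show t * (A2 * A1⁻¹) * t⁻¹ = (t * A2 * t⁻¹) * (t * A1 * t⁻¹)⁻¹ by group, hA3, ← hA2, ← he3]
  have he321 : e3 * e2 * e1 = 1 := by rw [he1, he2, he3]; group
  have hc12 : Commute e1 e2 :=
    Commute.mul_left (Commute.mul_right h12 (Commute.refl A1).inv_right)
      (Commute.inv_left (Commute.mul_right h20.symm h01.inv_right))
  have hpe1 : C.perm e1 = phi F ((finRotate 3).viaFintypeEmbedding elevenTriple * elevenA *
      ((finRotate 3).viaFintypeEmbedding elevenTriple)⁻¹ * elevenA⁻¹) := by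
    rw [he1, hA1, map_mul, map_mul, map_mul, map_inv, map_inv, hA', htp, ← map_inv, ← map_inv, ← map_mul,
      ← map_mul, ← map_mul]
  obtain ⟨ξ, hξ⟩ := C.exists_sc (x := e1 * e1) (by rw [map_mul, hpe1, ← map_mul, hsqP, map_one])
  have hξ2 : e2 * e2 = C.sc ξ := by
    rw [← hte1, show t * e1 * t⁻¹ * (t * e1 * t⁻¹) = t * (e1 * e1) * t⁻¹ by group, hξ, ← (C.sc_comm ξ t).eq,
      mul_inv_cancel_right]
  have hξ3 : e3 * e3 = C.sc ξ := by
    rw [← hte2, show t * e2 * t⁻¹ * (t * e2 * t⁻¹) = t * (e2 * e2) * t⁻¹ by group, hξ2, ← (C.sc_comm ξ t).eq,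
      mul_inv_cancel_right]
  have hξcube : ξ ^ 3 = 1 := by
    apply C.sc_injective
    have he3' : e3 = (e2 * e1)⁻¹ := eq_inv_of_mul_eq_one_left (by rw [← mul_assoc, he321])
    have h : C.sc ξ = (C.sc ξ * C.sc ξ)⁻¹ := by
      calc C.sc ξ = e3 * e3 := hξ3.symm
        _ = ((e2 * e1) * (e2 * e1))⁻¹ := by rw [he3']; group
        _ = ((e2 * e2) * (e1 * e1))⁻¹ := by
          rw [show e2 * e1 * (e2 * e1) = e2 * (e1 * e2) * e1 by group, hc12.eq]; group
        _ = _ := by rw [hξ2, hξ]
    rw [map_pow, map_one, pow_three]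
    exact eq_inv_iff_mul_eq_one.1 h
  set x1 := C.sc ξ * e1 with hx1
  set x2 := C.sc ξ * e2 with hx2
  set x3 := C.sc ξ * e3 with hx3
  have hsq : ∀ e, e * e = C.sc ξ → (C.sc ξ * e) * (C.sc ξ * e) = 1 := fun e he => by
    rw [show C.sc ξ * e * (C.sc ξ * e) = C.sc ξ * (e * C.sc ξ) * e by group, ← (C.sc_comm ξ e).eq, ← mul_assoc,
      mul_assoc, he, ← map_mul, ← map_mul, ← pow_two, ← pow_succ, hξcube, map_one]
  have htx : ∀ e, t * (C.sc ξ * e) * t⁻¹ = C.sc ξ * (t * e * t⁻¹) := fun e => by
    rw [← mul_assoc t, ← (C.sc_comm ξ t).eq]; group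
  have ht12 : t * x1 = x2 * t := by rw [← mul_inv_eq_iff_eq_mul, hx1, htx, hte1]
  have ht23 : t * x2 = x3 * t := by rw [← mul_inv_eq_iff_eq_mul, hx2, htx, hte2]
  have hx321 : x3 * x2 * x1 = 1 := by
    rw [hx1, hx2, hx3, show C.sc ξ * e3 * (C.sc ξ * e2) * (C.sc ξ * e1) =
      C.sc ξ * (e3 * C.sc ξ) * (e2 * C.sc ξ) * e1 by group, ← (C.sc_comm ξ e3).eq, ← (C.sc_comm ξ e2).eq,
      show C.sc ξ * (C.sc ξ * e3) * (C.sc ξ * e2) * e1 = C.sc ξ * C.sc ξ * (e3 * C.sc ξ) * e2 * e1 by group,
      ← (C.sc_comm ξ e3).eq, show C.sc ξ * C.sc ξ * (C.sc ξ * e3) * e2 * e1 = C.sc ξ * C.sc ξ * C.sc ξ * (e3 * e2 * e1)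
        by group, he321, mul_one, ← map_mul, ← map_mul, ← pow_two, ← pow_succ, hξcube, map_one]
  have hcx : Commute x1 x2 := ((C.sc_comm ξ _).mul_left ((C.sc_comm ξ e1).symm.mul_right hc12))
  have hs1 : x1 * x1 = 1 := hsq e1 hξ
  have hs2 : x2 * x2 = 1 := hsq e2 hξ2
  have hs3 : x3 = x2 * x1 := by
    have : x3 = (x2 * x1)⁻¹ := eq_inv_of_mul_eq_one_left (by rw [← mul_assoc, hx321])
    rw [this]
    refine inv_eq_of_mul_eq_one_right ?_
    rw [show x2 * x1 * (x2 * x1) = x2 * (x1 * x2) * x1 by group, hcx.eq,
      show x2 * (x2 * x1) * x1 = x2 * x2 * (x1 * x1) by group, hs1, hs2, mul_one]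
  -- no common eigenvector with nontrivial signs
  have hzero : ∀ v : V, C.el t (C.el t v) + C.el t v + v = 0 := by
    intro v
    set u := C.el t (C.el t v) + C.el t v + v with hu
    have h3 : C.el t (C.el t (C.el t v)) = v := by
      rw [← Module.End.mul_apply, ← Module.End.mul_apply, ← el_mul, ← el_mul,
        show t * t * t = 1 by rw [← ht3]; simp [pow_succ], el_one, Module.End.one_apply]
    have : u ∈ C.fixd t := by rw [C.mem_fixd, hu, map_add, map_add, h3]; abel
    rwa [hfix, Submodule.mem_bot] at this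
  have hpat : ∀ s1 s2 : k, s1 * s1 = 1 → s2 * s2 = 1 → (s1 ≠ 1 ∨ s2 ≠ 1) → s1 = -1 → ∀ v : V,
      C.el x1 v = s1 • v → C.el x2 v = s2 • v → v = 0 := by
    intro s1 s2 q1 q2 _ hs1' v h1 h2
    have hstep : ∀ (a b : k) (v : V), C.el x1 v = a • v → C.el x2 v = b • v → b * b = 1 →
        C.el x1 (C.el t v) = (a * b) • C.el t v ∧ C.el x2 (C.el t v) = a • C.el t v := by
      intro a b v h1 h2 hb
      have e2' : C.el x2 (C.el t v) = a • C.el t v := by
        rw [← Module.End.mul_apply, ← el_mul, ← ht12, el_mul, Module.End.mul_apply, h1, map_smul]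
      have e3' : C.el x3 (C.el t v) = b • C.el t v := by
        rw [← Module.End.mul_apply, ← el_mul, ← ht23, el_mul, Module.End.mul_apply, h2, map_smul]
      refine ⟨?_, e2'⟩
      rw [show x1 = x2 * x3 by rw [hs3, ← mul_assoc, hs2, one_mul], el_mul, Module.End.mul_apply, e3', map_smul, e2',
        smul_smul, mul_comm]
    obtain ⟨a1, a2⟩ := hstep s1 s2 v h1 h2 q2
    obtain ⟨b1, b2⟩ := hstep (s1 * s2) s1 _ a1 a2 q1
    have hm1 : (-1 : k) ≠ 1 := by
      intro h
      exact h2' (by linear_combination -h)
    let vs : Fin 3 → V := ![v, C.el t v, C.el t (C.el t v)]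
    let χ : Fin 3 → Bool → k := ![fun b => if b then s1 else s2, fun b => if b then s1 * s2 else s1,
      fun b => if b then s1 * s2 * s1 else s1 * s2]
    have hχ : ∀ i j, i ≠ j → ∃ a, χ i a ≠ χ j a := by
      rcases (mul_self_eq_one_iff.1 q2) with rfl | rfl <;> subst hs1' <;>
      · intro i j hij
        fin_cases i <;> fin_cases j <;>
          first
            | exact absurd rfl hij
            | (refine ⟨true, ?_⟩; simp [χ, hm1, hm1.symm]; done)
            | (refine ⟨false, ?_⟩; simp [χ, hm1, hm1.symm]; done)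
    have h := joint_indep (fun b : Bool => if b then C.el x1 else C.el x2) χ hχ vs Finset.univ (fun i _ b => by
      fin_cases i <;> cases b <;> simp [vs, χ, h1, h2, a1, a2, b1, b2]) (by
        rw [Fin.sum_univ_three]
        simp only [vs, Matrix.cons_val_zero, Matrix.cons_val_one, Matrix.cons_val_two, Matrix.head_cons,
          Matrix.tail_cons]
        rw [← hzero v]; abel)
    exact h 0 (Finset.mem_univ 0)
  have h1all : ∀ v : V, C.el x1 v = v := by
    intro v
    obtain ⟨u, hu⟩ : ∃ u, u = v - C.el x1 v := ⟨_, rfl⟩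
    have hx11 : ∀ z : V, C.el x1 (C.el x1 z) = z := fun z => by
      rw [← Module.End.mul_apply, ← el_mul, hs1, el_one, Module.End.one_apply]
    have hx22 : ∀ z : V, C.el x2 (C.el x2 z) = z := fun z => by
      rw [← Module.End.mul_apply, ← el_mul, hs2, el_one, Module.End.one_apply]
    have hu1 : C.el x1 u = (-1 : k) • u := by rw [hu, map_sub, hx11, neg_one_smul, neg_sub]
    have hu2 : C.el x1 (C.el x2 u) = (-1 : k) • C.el x2 u := by
      rw [← Module.End.mul_apply, ← el_mul, hcx.eq, el_mul, Module.End.mul_apply, hu1, map_smul]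
    have hp := hpat (-1) 1 (by ring) (by ring) (Or.inl (by intro h; exact h2' (by linear_combination -h))) rfl
      (u + C.el x2 u) (by rw [map_add, hu1, hu2, smul_add]) (by rw [map_add, hx22, one_smul, add_comm])
    have hm := hpat (-1) (-1) (by ring) (by ring) (Or.inl (by intro h; exact h2' (by linear_combination -h))) rfl
      (u - C.el x2 u) (by rw [map_sub, hu1, hu2, smul_sub]) (by rw [map_sub, hx22, neg_one_smul, neg_sub])
    have huu : (2 : k) • u = 0 := by
      rw [two_smul, show u + u = (u + C.el x2 u) + (u - C.el x2 u) by abel, hp, hm, add_zero]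
    have := (smul_eq_zero.1 huu).resolve_left h2'
    rw [hu, sub_eq_zero] at this
    exact this.symm
  have hx1one : x1 = 1 := C.el_injective (LinearMap.ext fun v => by rw [h1all v, el_one, Module.End.one_apply])
  have := congrArg C.perm hx1one
  rw [hx1, map_mul, C.perm_sc, one_mul, hpe1, map_one] at this
  exact hneP (Equiv.Perm.viaEmbeddingHom_injective F (this.trans (map_one _).symm))

theorem natCast_ne_zero_of_ne {p q : ℕ} [Fact p.Prime] [CharP k p] (hq : q.Prime) (h : p ≠ q) : (q : k) ≠ 0 :=
  fun e => h ((Nat.prime_dvd_prime_iff_eq Fact.out hq).1 ((CharP.cast_eq_zero_iff k p q).1 e))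

theorem finrank_moved_le_of_kill (x y : C.H) (h : C.moved y ≤ C.fixd x) :
    finrank k (C.moved x) + finrank k (C.moved y) ≤ finrank k V := by
  have := Submodule.finrank_mono h
  have := C.finrank_moved_add x
  omega

/-- The moved spaces of all three cycles agree if those of disjoint ones are nested. -/
theorem moved_eq_top (hr : 9 ≤ r)
    (hnest : ∀ F : Fin 9 ↪ Fin r,
      C.moved (C.cyc ((threeBlocks 1).trans F)) ≤ C.moved (C.cyc ((threeBlocks 0).trans F)))
    (f : Fin 3 ↪ Fin r) : C.moved (C.cyc f) = ⊤ := by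
  have : Fact (Nat.Prime 3) := ⟨Nat.prime_three⟩
  have hpair : ∀ f g : Fin 3 ↪ Fin r, (∀ i j, g i ≠ f j) → C.moved (C.cyc g) ≤ C.moved (C.cyc f) := by
    intro f g hd
    obtain ⟨F0, hF0⟩ := exists_emb (fun i : Fin 9 => (⟨i.val, by omega⟩ : Fin r)) (fun i j e => Fin.ext (by simpa using e))
    let six : Fin 6 ↪ Fin 9 := Fin.castLEEmb (by omega)
    let tgt : Fin 6 → Fin r := fun i => Sum.elim f g (finSumFinEquiv.symm (i : Fin (3 + 3)))
    have htgt : Function.Injective tgt :=
      (f.injective.sumElim g.injective (fun a b e => hd b a e.symm)).comp finSumFinEquiv.symm.injective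
    obtain ⟨T, hT⟩ := exists_emb tgt htgt
    obtain ⟨e, -, he⟩ := exists_even_map (six.trans F0) T (by omega)
    have h := hnest (F0.trans e.toEmbedding)
    have h0 : (threeBlocks 0).trans (F0.trans e.toEmbedding) = f := Function.Embedding.ext fun i => by
      have := he (finSumFinEquiv (Sum.inl i : Fin 3 ⊕ Fin 3))
      rw [hT] at this
      simp only [tgt, Equiv.symm_apply_apply, Sum.elim_inl] at this
      rw [← this]
      change e (F0 (threeBlocks 0 i)) = e (F0 (six _))
      rw [(blocks_six i).1]
    have h1 : (threeBlocks 1).trans (F0.trans e.toEmbedding) = g := Function.Embedding.ext fun i => by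
      have := he (finSumFinEquiv (Sum.inr i : Fin 3 ⊕ Fin 3))
      rw [hT] at this
      simp only [tgt, Equiv.symm_apply_apply, Sum.elim_inr] at this
      rw [← this]
      change e (F0 (threeBlocks 1 i)) = e (F0 (six _))
      rw [(blocks_six i).2]
    rwa [h0, h1] at h
  have hall : ∀ f g : Fin 3 ↪ Fin r, C.moved (C.cyc g) ≤ C.moved (C.cyc f) := by
    classical
    intro f g
    obtain ⟨h, hh⟩ := exists_emb_avoiding (m := 3) (Finset.univ.image f ∪ Finset.univ.image g) (by
      have := Finset.card_union_le (Finset.univ.image f) (Finset.univ.image g)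
      rw [Finset.card_image_of_injective _ f.injective, Finset.card_image_of_injective _ g.injective,
        Finset.card_univ, Fintype.card_fin] at this
      omega)
    exact le_trans (hpair h g fun i j e => hh j (Finset.mem_union_right _
        (Finset.mem_image.2 ⟨i, Finset.mem_univ i, e⟩)))
      (hpair f h fun i j e => hh i (Finset.mem_union_left _ (Finset.mem_image.2 ⟨j, Finset.mem_univ j, e.symm⟩)))
  refine (C.irred _ fun x w hw => ?_).resolve_left
    (C.moved_ne_bot (C.perm_cyc_ne_one hr (by decide) (by omega) f))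
  have hconj := C.cyc_conj hr (ℓ := 3) (by decide) (by omega) (f := f) (g := f.trans (C.perm x).toEmbedding) (h := x)
    (s := 1) (by rw [pow_one]; exact conj_phi (fun i => rfl) _)
  rw [pow_one] at hconj
  refine hall f (f.trans (C.perm x).toEmbedding) ?_
  rw [← hconj, ← C.map_moved]
  exact ⟨w, hw, rfl⟩

/-- In degree below the bound the canonical lift of a three cycle moves at most two dimensions. -/
theorem rank_three (hr : 9 ≤ r) {p : ℕ} [hp : Fact p.Prime] [CharP k p]
    (hIH : ∀ m, 9 ≤ m → m < r → SectionBound m) (hlt : finrank k V < degBound r p) :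
    5 ≤ finrank k V ∧ ∀ f : Fin 3 ↪ Fin r, finrank k (C.moved (C.cyc f)) ≤ 2 := by
  have : Fact (Nat.Prime 3) := ⟨Nat.prime_three⟩
  have : Fact (Nat.Prime 5) := ⟨by norm_num⟩
  have : Fact (Nat.Prime 7) := ⟨by norm_num⟩
  have hb := degBound_le r p
  have hn2 : finrank k V + 2 ≤ r := by omega
  suffices hone : 5 ≤ finrank k V ∧ ∃ f : Fin 3 ↪ Fin r, finrank k (C.moved (C.cyc f)) ≤ 2 by
    obtain ⟨h5, f, hf⟩ := hone
    exact ⟨h5, fun g => le_of_eq_of_le (C.finrank_moved_cyc hr (by decide) (by omega) g f) hf⟩
  have hdvd : p ∣ r → finrank k V + 3 ≤ r := fun h => by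
    unfold degBound at hlt
    rw [if_pos h] at hlt
    omega
  by_cases hp3 : p = 3
  · subst hp3
    have h5k : ((5 : ℕ) : k) ≠ 0 := natCast_ne_zero_of_ne (p := 3) (by norm_num) (by norm_num)
    have h7k : ((7 : ℕ) : k) ≠ 0 := natCast_ne_zero_of_ne (p := 3) (by norm_num) (by norm_num)
    -- a five cycle killing a disjoint three cycle
    have hfinish : 12 ≤ r → ∀ (f : Fin 3 ↪ Fin r) (f' : Fin 5 ↪ Fin r), (∀ i j, f' i ≠ f j) →
        C.moved (C.cyc f') ≤ C.fixd (C.cyc f) →
        5 ≤ finrank k V ∧ ∃ f : Fin 3 ↪ Fin r, finrank k (C.moved (C.cyc f)) ≤ 2 := by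
      intro h12 f f' hd hk
      obtain ⟨g, b, hg, hbg⟩ := exists_compl_factor f f' hd
      have h := C.finrank_moved_add_bound_le hr (ℓ := 3) (ℓ' := 5) (by decide) (by omega) (by decide) (by omega)
        (by omega) h5k f (by omega) (hIH _ (by omega) (by omega)) hp.out g hg b (by rw [hbg]; exact hk)
      have h1 : 1 ≤ finrank k (C.moved (C.cyc f)) :=
        Submodule.one_le_finrank_iff.2 (C.moved_ne_bot (C.perm_cyc_ne_one hr (by decide) (by omega) f))
      unfold degBound at h hlt
      split_ifs at h hlt <;> exact ⟨by omega, f, by omega⟩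
    rcases Nat.lt_or_ge r 14 with h14 | h14
    · rcases Nat.lt_or_ge r 10 with h10 | h10
      · obtain rfl : r = 9 := by omega
        have hn : finrank k V ≤ 6 := by
          have := hdvd (by norm_num)
          omega
        obtain ⟨ff, hff⟩ : ∃ ff : Fin 5 ↪ Fin 9, ∀ i, (ff i).val = i.val := ⟨Fin.castLEEmb (by omega), fun i => rfl⟩
        obtain ⟨gg, hgg⟩ := exists_emb_avoiding (m := 3) (Finset.univ.image ff)
          (by rw [Finset.card_image_of_injective _ ff.injective]; simp)
        obtain ⟨hk, hlow⟩ := C.line_fixd (by omega) (ℓ := 5) (by decide) (by omega) h5k mulTwo 2 3 rot_five_decide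
          orbit_five (by omega) ff gg fun i j e => hgg i (Finset.mem_image.2 ⟨j, Finset.mem_univ j, e.symm⟩)
        have h1 : 1 ≤ finrank k (C.moved (C.cyc gg)) :=
          Submodule.one_le_finrank_iff.2 (C.moved_ne_bot (C.perm_cyc_ne_one hr (by decide) (by omega) gg))
        have := C.finrank_moved_le_of_kill _ _ hk
        exact ⟨by omega, gg, by omega⟩
      rcases Nat.lt_or_ge r 11 with h11 | h11
      · obtain rfl : r = 10 := by omega
        obtain ⟨ff, hff⟩ : ∃ ff : Fin 7 ↪ Fin 10, ∀ i, (ff i).val = i.val := ⟨Fin.castLEEmb (by omega), fun i => rfl⟩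
        obtain ⟨gg, hgg⟩ := exists_emb_avoiding (m := 3) (Finset.univ.image ff)
          (by rw [Finset.card_image_of_injective _ ff.injective]; simp)
        obtain ⟨hk, hlow⟩ := C.line_fixd (by omega) (ℓ := 7) (by decide) (by omega) h7k mulThree 3 5 rot_seven_decide
          orbit_seven (by omega) ff gg fun i j e => hgg i (Finset.mem_image.2 ⟨j, Finset.mem_univ j, e.symm⟩)
        have := C.finrank_moved_le_of_kill _ _ hk
        exact ⟨by omega, gg, by omega⟩
      obtain ⟨F, hF⟩ := exists_emb (fun i : Fin 10 => (⟨i.val, by omega⟩ : Fin r))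
        (fun i j e => Fin.ext (by simpa using e))
      obtain ⟨hk, hlow⟩ := C.five_three (by omega) (by omega) (by simpa using h5k) F
      rcases Nat.lt_or_ge r 12 with h12 | h12
      swap
      · exact hfinish h12 _ _ (fun i j e =>
          five_ne_triple i j (F.injective e)) hk
      obtain rfl : r = 11 := by omega
      have hn : finrank k V ≤ 9 := by omega
      -- eleven points: a second three cycle
      set t := C.cyc (tenTriple.trans F) with ht
      set c := C.cyc ((fiveBlocks 0).trans F) with hc
      obtain ⟨g, b, hg, hbg⟩ := exists_compl_factor (tenTriple.trans F) ((fiveBlocks 0).trans F) (fun i j e =>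
          five_ne_triple i j (F.injective e))
      obtain ⟨b', hb'⟩ := exists_emb_avoiding (m := 3) (Finset.univ.image b)
        (by rw [Finset.card_image_of_injective _ b.injective]; simp)
      have hover := C.cyc_over (ℓ := 3) (m := 11 - 3) (by decide) (by omega) g b'
      set t' := C.cyc (b'.trans g) with ht'
      have hcom : ∀ h, C.Over g h → Commute h t := fun h hh => C.commute_over hr (by decide) (by omega) hg hh
      have hinv : ∀ h, C.Over g h → ∀ v ∈ C.moved t, C.el h v ∈ C.moved t := fun h hh =>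
        C.moved_invariant (hcom h hh)
      have hcover : C.Over g c := by rw [hc, ← hbg]; exact C.cyc_over (by decide) (by omega) g b
      have hcfix : C.moved t ≤ C.fixd c := C.fixd_of_fixed_moved (hcom c hcover).symm hk
      have hscal : C.ScalarOn (C.moved t) t' := by
        rcases C.scalarOn_of_over (by omega) g _ hinv with h | h
        · exact h _ hover
        · exfalso
          have h1 := h c hcover ⟨1, fun v hv => by rw [one_smul]; exact C.mem_fixd.1 (hcfix hv)⟩
          exact C.perm_cyc_ne_one hr (by decide) (by omega) _ h1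
      have htfix : C.moved t ≤ C.fixd t' :=
        C.fixed_of_scalarOn_char 3 (C.cyc_spec (by decide) (by omega) _).1.1 hscal
      have hct' : C.moved c ≤ C.fixd t' := by
        have h := C.line_fixd hr (ℓ := 5) (by decide) (by omega) h5k mulTwo 2 3 rot_five_decide orbit_five
        by_cases hn8 : finrank k V < 8
        · refine (h (by omega) ((fiveBlocks 0).trans F) (b'.trans g) fun i j e => ?_).1
          rw [← hbg] at e
          exact hb' i (Finset.mem_image.2 ⟨j, Finset.mem_univ j, (g.injective e).symm⟩)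
        obtain ⟨F', hF'⟩ : ∃ F' : Fin 10 ↪ Fin 11, (fiveBlocks 0).trans F' = b.trans g ∧
            tenTriple.trans F' = b'.trans g := by
          classical
          let six : Fin 8 ↪ Fin 10 := Fin.castLEEmb (by omega)
          let tgt : Fin 8 → Fin 11 := fun i => Sum.elim (b.trans g) (b'.trans g) (finSumFinEquiv.symm (i : Fin (5 + 3)))
          have htgt : Function.Injective tgt :=
            ((b.trans g).injective.sumElim (b'.trans g).injective (fun x y e =>
              hb' y (Finset.mem_image.2 ⟨x, Finset.mem_univ x, g.injective e⟩))).comp finSumFinEquiv.symm.injective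
          obtain ⟨T, hT⟩ := exists_emb tgt htgt
          obtain ⟨σ, hσ⟩ := Equiv.Perm.exists_extending_pair (six.trans F) T (six.trans F).injective T.injective
          refine ⟨F.trans σ.toEmbedding, Function.Embedding.ext fun i => ?_, Function.Embedding.ext fun i => ?_⟩
          · have := hσ (finSumFinEquiv (Sum.inl i : Fin 5 ⊕ Fin 3))
            rw [hT] at this
            simp only [tgt, Equiv.symm_apply_apply, Sum.elim_inl] at this
            rw [← this]
            change σ (F (fiveBlocks 0 i)) = σ (F (six _))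
            rw [blocks_eight.1 i]
          · have := hσ (finSumFinEquiv (Sum.inr i : Fin 5 ⊕ Fin 3))
            rw [hT] at this
            simp only [tgt, Equiv.symm_apply_apply, Sum.elim_inr] at this
            rw [← this]
            change σ (F (tenTriple i)) = σ (F (six _))
            rw [blocks_eight.2 i]
        have := (C.five_three (by omega) (by omega) (by simpa using h5k) F').1
        rwa [hF'.1, hF'.2, hbg] at this
      have hdis : Disjoint (C.moved t) (C.moved c) := by
        rw [Submodule.disjoint_def]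
        intro v hv hv'
        exact C.moved_inf_fixd h5k (C.cyc_spec (by decide) (by omega) _).1.1 v hv' (hcfix hv)
      have hsum := Submodule.finrank_sup_add_finrank_inf_eq (C.moved t) (C.moved c)
      rw [hdis.eq_bot, finrank_bot] at hsum
      have := Submodule.finrank_mono (sup_le htfix hct')
      have := C.finrank_moved_add t'
      have heq : finrank k (C.moved t') = finrank k (C.moved t) :=
        C.finrank_moved_cyc hr (by decide) (by omega) _ _
      have h1 : 1 ≤ finrank k (C.moved t) :=
        Submodule.one_le_finrank_iff.2 (C.moved_ne_bot (C.perm_cyc_ne_one hr (by decide) (by omega) _))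
      exact ⟨by omega, tenTriple.trans F, by rw [← ht]; omega⟩
    · obtain ⟨ff, hff⟩ := exists_emb (fun i : Fin 5 => (⟨i.val, by omega⟩ : Fin r))
        (fun i j e => Fin.ext (by simpa using e))
      obtain ⟨g, hg⟩ := exists_compl ff
      obtain ⟨ζ, hζ⟩ := exists_zeta h5k
      obtain ⟨hdim, -⟩ := C.single_facts hr (by decide) (by omega) h5k ff hζ mulTwo 2 3 rot_five_decide orbit_five
      have hsmall : ∀ w : Fin 1 → ZMod 5, w 0 ≠ 0 → finrank k (C.wt ![C.cyc ff] ζ w) < degBound (r - 5) 3 := by
        intro w hw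
        have := hdim w hw
        have := Submodule.finrank_le (C.moved (C.cyc ff))
        have := le_degBound (r - 5) 3
        omega
      let b : Fin 3 ↪ Fin (r - 5) := Fin.castLEEmb (by omega)
      exact hfinish (by omega) (b.trans g) ff (fun i j e => hg (b j) i e.symm)
        (C.moved_le_fixd_of_small hr (by decide) (by omega) h5k ff (by omega) (hIH _ (by omega) (by omega)) hp.out g hg
          hζ hsmall b)
  · have h3k : ((3 : ℕ) : k) ≠ 0 := natCast_ne_zero_of_ne (p := p) Nat.prime_three hp3
    rcases Nat.lt_or_ge r 12 with h12 | h12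
    · obtain ⟨F, hF⟩ := exists_emb (fun i : Fin 9 => (⟨i.val, by omega⟩ : Fin r))
        (fun i j e => Fin.ext (by simpa using e))
      rcases C.triple_blocks hr (by omega) (by simpa using h3k) F with ⟨h1, h2⟩ | ⟨h8, -⟩
      · exact ⟨by omega, _, h1⟩
      exfalso
      have hrank : ∀ f : Fin 3 ↪ Fin r, 8 ≤ finrank k (C.moved (C.cyc f)) := fun f =>
        le_of_le_of_eq h8 (C.finrank_moved_cyc hr (by decide) (by omega) _ f)
      have hn8 : 8 ≤ finrank k V := le_trans h8 (Submodule.finrank_le _)
      have hr9 : r ≠ 9 := fun h => by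
        subst h
        omega
      have hnest : ∀ F' : Fin 9 ↪ Fin r,
          C.moved (C.cyc ((threeBlocks 1).trans F')) ≤ C.moved (C.cyc ((threeBlocks 0).trans F')) := fun F' => by
        rcases C.triple_blocks hr (by omega) (by simpa using h3k) F' with ⟨h1, -⟩ | ⟨-, h2⟩
        · have := hrank ((threeBlocks 0).trans F')
          omega
        · exact h2
      have htop := C.moved_eq_top hr hnest
      have hfix : ∀ f : Fin 3 ↪ Fin r, finrank k (C.fixd (C.cyc f)) = 0 := fun f => by
        have := C.finrank_moved_add (C.cyc f)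
        rw [htop f, finrank_top] at this
        omega
      by_cases hp5 : p = 5
      · subst hp5
        have hr11 : r = 11 := by
          by_contra h
          have := hdvd (show 5 ∣ r by omega)
          omega
        subst hr11
        exact C.fixd_ne_bot le_rfl (by omega)
          (by simpa using natCast_ne_zero_of_ne (k := k) (p := 5) (q := 7) (by norm_num) (by norm_num))
          (by simpa using natCast_ne_zero_of_ne (k := k) (p := 5) (q := 2) (by norm_num) (by norm_num))
          (Function.Embedding.refl _) (Submodule.finrank_eq_zero.1 (hfix _))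
      · obtain ⟨F10, hF10⟩ := exists_emb (fun i : Fin 10 => (⟨i.val, by omega⟩ : Fin r))
          (fun i j e => Fin.ext (by simpa using e))
        obtain ⟨hk, hlow⟩ := C.five_three (by omega) (by omega)
          (by simpa using natCast_ne_zero_of_ne (k := k) (p := p) (q := 5) (by norm_num) hp5) F10
        have := Submodule.finrank_mono hk
        rw [hfix] at this
        omega
    · obtain ⟨ff, hff⟩ := exists_emb (fun i : Fin 3 => (⟨i.val, by omega⟩ : Fin r))
        (fun i j e => Fin.ext (by simpa using e))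
      obtain ⟨g, hg⟩ := exists_compl ff
      obtain ⟨ζ, hζ⟩ := exists_zeta h3k
      obtain ⟨hdim, -⟩ := C.single_facts hr (by decide) (by omega) h3k ff hζ (Equiv.swap 1 2) 2 1 rot_three_decide
        orbit_three
      have hsmall : ∀ w : Fin 1 → ZMod 3, w 0 ≠ 0 → finrank k (C.wt ![C.cyc ff] ζ w) < degBound (r - 3) p := by
        intro w hw
        have := hdim w hw
        have := Submodule.finrank_le (C.moved (C.cyc ff))
        have := le_degBound (r - 3) p
        omega
      let b : Fin 3 ↪ Fin (r - 3) := Fin.castLEEmb (by omega)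
      have hk := C.moved_le_fixd_of_small hr (by decide) (by omega) h3k ff (by omega) (hIH _ (by omega) (by omega))
        hp.out g hg hζ hsmall b
      have hcom : Commute (C.cyc (b.trans g)) (C.cyc ff) :=
        C.commute_over hr (by decide) (by omega) hg (C.cyc_over (by decide) (by omega) g b)
      have hk' := C.fixd_of_fixed_moved hcom hk
      have h := C.finrank_moved_add_bound_le hr (ℓ := 3) (ℓ' := 3) (by decide) (by omega) (by decide) (by omega)
        (by omega) h3k ff (by omega) (hIH _ (by omega) (by omega)) hp.out g hg b hk'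
      have hle : C.moved (C.cyc ff) ≤ C.wt ![C.cyc ff] ζ (![1] : Fin 1 → ZMod 3) ⊔
          C.wt ![C.cyc ff] ζ (![2] : Fin 1 → ZMod 3) := by
        refine C.moved_le_of_wt h3k hζ (xs := ![C.cyc ff]) (fun i => by
          fin_cases i; exact (C.cyc_spec (by decide) (by omega) ff).1.1)
          (fun i j => by fin_cases i; fin_cases j; exact Commute.refl _) 0 _ fun x hx => ?_
        rcases three_weights.1 x hx with rfl | rfl
        · exact le_sup_left
        · exact le_sup_right
      have e1 := hdim ![1] three_weights.2.1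
      have e2 := hdim ![2] three_weights.2.2
      have := (Submodule.finrank_mono hle).trans (Submodule.finrank_add_le_finrank_add_finrank _ _)
      have := le_degBound (r - 3) p
      exact ⟨by
        have : 1 ≤ finrank k (C.moved (C.cyc ff)) :=
          Submodule.one_le_finrank_iff.2 (C.moved_ne_bot (C.perm_cyc_ne_one hr (by decide) (by omega) ff))
        omega, ff, by omega⟩

end Cover

end CfsgLib.Classes.AltSections
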