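import Mathlib
import Cfsg.Agent.Lib.Classes.AltSections.Def

/-!
Reduction of the degree bound for sections of linear groups to irreducible projective representations.
-/

set_option autoImplicit false
set_option linter.unusedSectionVars false

open Module

open scoped commutatorElement

namespace CfsgLib.Classes.AltSections

theorem sq_lt_two_pow {m : ℕ} (hm : 5 ≤ m) : m * m < 2 ^ m := by
  induction m, hm using Nat.le_induction with
  | base => norm_num
  | succ m hm ih => rw [pow_succ]; nlinarith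

theorem five_le_of_nine {r : ℕ} (hr : 9 ≤ r) : 5 ≤ r := by omega

theorem card_alt_ge {r : ℕ} (hr : 9 ≤ r) : 181440 ≤ Nat.card (alternatingGroup (Fin r)) := by
  have : Nontrivial (Fin r) := Fin.nontrivial_iff_two_le.2 (by omega)
  rw [nat_card_alternatingGroup, Nat.card_fin]
  calc 181440 = Nat.factorial 9 / 2 := by decide
    _ ≤ r.factorial / 2 := Nat.div_le_div_right (Nat.factorial_le hr)

/-- Endomorphisms of a finite vector space of exponent `q` embed into a matrix algebra over a field of
characteristic `q`. -/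
theorem exists_embed_end (q : ℕ) [Fact q.Prime] (A : Type) [AddCommGroup A] [Module (ZMod q) A] [Finite A] :
    ∃ (d : ℕ) (e : End (ZMod q) A →* End (AlgebraicClosure (ZMod q)) (Fin d → AlgebraicClosure (ZMod q))),
      Function.Injective e ∧ Nat.card A = q ^ d ∧ Nat.card (End (ZMod q) A) = q ^ (d * d) := by
  let b := Module.finBasis (ZMod q) A
  refine ⟨_, ((Matrix.toLinAlgEquiv' (R := AlgebraicClosure (ZMod q))).toRingHom.comp
    (((algebraMap (ZMod q) (AlgebraicClosure (ZMod q))).mapMatrix).comp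
      (LinearMap.toMatrixAlgEquiv b).toRingHom)).toMonoidHom, ?_, ?_, ?_⟩
  · intro x y h
    exact (LinearMap.toMatrixAlgEquiv b).injective
      (Matrix.map_injective (algebraMap (ZMod q) _).injective ((Matrix.toLinAlgEquiv').injective h))
  · rw [Module.natCard_eq_pow_finrank (K := ZMod q), Nat.card_zmod]
  · rw [Nat.card_congr (LinearMap.toMatrixAlgEquiv b).toEquiv, Matrix, Nat.card_fun, Nat.card_fun, Nat.card_zmod,
      Nat.card_fin, ← pow_mul]

variable {r : ℕ} {k V G : Type} [Field k] [AddCommGroup V] [Module k V] [Group G] [Finite G]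

/-- An element acting as a scalar. -/
def IsScalarElt (ρ : G →* (End k V)ˣ) (g : G) : Prop := ∃ c : k, (ρ g : End k V) = c • 1

theorem isScalarElt_commute {ρ : G →* (End k V)ˣ} (hρ : Function.Injective ρ) {g : G} (hg : IsScalarElt ρ g) (x : G) :
    g * x = x * g := by
  obtain ⟨c, hc⟩ := hg
  apply hρ
  ext1
  rw [map_mul, map_mul, Units.val_mul, Units.val_mul, hc, smul_one_mul, mul_smul_one]

/-- The elements acting as scalars. -/
def scalarSubgroup (ρ : G →* (End k V)ˣ) : Subgroup G where
  carrier := {g | IsScalarElt ρ g}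
  one_mem' := ⟨1, by rw [map_one, Units.val_one, one_smul]⟩
  mul_mem' := fun {a b} ⟨c, hc⟩ ⟨d, hd⟩ =>
    ⟨c * d, by rw [map_mul, Units.val_mul, hc, hd, smul_one_mul, smul_smul]⟩
  inv_mem' := fun {a} ⟨c, hc⟩ => ⟨c⁻¹, by
    rcases subsingleton_or_nontrivial (End k V) with h | h
    · exact Subsingleton.elim _ _
    have hc0 : c ≠ 0 := by
      rintro rfl
      rw [zero_smul] at hc
      exact (ρ a).ne_zero hc
    rw [map_inv]
    refine Units.inv_eq_of_mul_eq_one_right ?_
    rw [hc, smul_one_mul, smul_smul, mul_inv_cancel₀ hc0, one_smul]⟩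

theorem isScalarElt_mul_iff {ρ : G →* (End k V)ˣ} {a : G} {g : G} (ha : IsScalarElt ρ a) :
    IsScalarElt ρ (a * g) ↔ IsScalarElt ρ g :=
  (scalarSubgroup ρ).mul_mem_cancel_left ha

section

variable [IsAlgClosed k] [FiniteDimensional k V]

/-- An abelian normal subgroup consists of scalars. -/
theorem abelian_normal_scalar (hr : 9 ≤ r) {π : G →* alternatingGroup (Fin r)} (hπ : Function.Surjective π)
    {ρ : G →* (End k V)ˣ} (hn : finrank k V < r)
    (hirr : ∀ W : Submodule k V, (∀ g, ∀ w ∈ W, (ρ g : End k V) w ∈ W) → W = ⊥ ∨ W = ⊤)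
    (hnor : ∀ N : Subgroup G, N.Normal → N ≤ π.ker ∨ N = ⊤)
    (A : Subgroup G) [hA : A.Normal] (hab : ∀ a ∈ A, ∀ b ∈ A, a * b = b * a) : ∀ a ∈ A, IsScalarElt ρ a := by
  classical
  rcases subsingleton_or_nontrivial V with hV | hV
  · exact fun a _ => ⟨1, LinearMap.ext fun v => Subsingleton.elim _ _⟩
  let f : A → End k V := fun a => (ρ a.1 : End k V)
  have hf : ∀ a b : A, Commute (f a) (f b) := fun a b => by
    change (ρ a.1 : End k V) * ρ b.1 = ρ b.1 * ρ a.1
    rw [← Units.val_mul, ← map_mul, hab a.1 a.2 b.1 b.2, map_mul, Units.val_mul]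
  have := Fintype.ofFinite A
  let Esp : (A → k) → Submodule k V := fun c => ⨅ a, Module.End.eigenspace (f a) (c a)
  have hEsp : ∀ c v, v ∈ Esp c ↔ ∀ a, f a v = c a • v := fun c v => by
    simp [Esp, Submodule.mem_iInf, Module.End.mem_eigenspace_iff]
  obtain ⟨W, c₀, hW, hc₀, -⟩ := exists_common_eigen f hf Finset.univ
  have hne : Esp c₀ ≠ ⊥ := fun h => hW (eq_bot_iff.2 fun w hw =>
    h ▸ (hEsp c₀ w).2 fun a => hc₀ a (Finset.mem_univ a) w hw)
  let X := {c : A → k // Esp c ≠ ⊥}
  have hbd : ∀ s : Finset X, s.card ≤ finrank k V := by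
    intro s
    have h := sum_finrank_le f (fun c : s => c.1.1)
      (fun i j hij => by
        by_contra! h
        exact hij (Subtype.ext (Subtype.ext (funext h))))
      (fun c : s => Esp c.1.1) (fun c v hv => (hEsp _ _).1 hv)
    refine le_trans ?_ h
    calc s.card = ∑ _c : s, 1 := by simp
      _ ≤ _ := Finset.sum_le_sum fun c _ => Submodule.one_le_finrank_iff.2 c.1.2
  have : Finite X := by
    by_contra hinf
    rw [not_finite_iff_infinite] at hinf
    obtain ⟨s, hs⟩ := Infinite.exists_subset_card_eq X (finrank k V + 1)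
    have := hbd s
    omega
  have := Fintype.ofFinite X
  have hcard : Fintype.card X < r := lt_of_le_of_lt (hbd Finset.univ) hn
  let cj : G → A → A := fun g a => ⟨g⁻¹ * a.1 * g, by simpa using hA.conj_mem a.1 a.2 g⁻¹⟩
  have hmove : ∀ (g : G) (c : A → k) (v : V), v ∈ Esp c → (ρ g : End k V) v ∈ Esp (fun a => c (cj g a)) := by
    intro g c v hv
    rw [hEsp] at hv ⊢
    intro a
    have h := congrArg (ρ g : End k V) (hv (cj g a))
    rw [map_smul, ← Module.End.mul_apply] at h
    rw [← h, ← Module.End.mul_apply]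
    congr 1
    change (ρ a.1 : End k V) * ρ g = ρ g * ρ (g⁻¹ * a.1 * g)
    rw [← Units.val_mul, ← Units.val_mul, ← map_mul, ← map_mul]
    congr 2
    group
  have hne' : ∀ (g : G) (c : A → k), Esp c ≠ ⊥ → Esp (fun a => c (cj g a)) ≠ ⊥ := by
    intro g c hc h
    obtain ⟨v, hv, hv0⟩ := (Submodule.ne_bot_iff _).1 hc
    have h1 := hmove g c v hv
    rw [h, Submodule.mem_bot] at h1
    refine hv0 (?_ : v = 0)
    have h2 := congrArg (↑(ρ g)⁻¹ : End k V) h1
    rwa [map_zero, ← Module.End.mul_apply, Units.inv_mul, Module.End.one_apply] at h2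
  let act : G → X → X := fun g c => ⟨fun a => c.1 (cj g a), hne' g c.1 c.2⟩
  have act_one : ∀ c, act 1 c = c := fun c => Subtype.ext (funext fun a => by
    show c.1 (cj 1 a) = c.1 a
    exact congrArg c.1 (Subtype.ext (show (1 : G)⁻¹ * a.1 * 1 = a.1 by group)))
  have act_mul : ∀ g h c, act (g * h) c = act g (act h c) := fun g h c => Subtype.ext (funext fun a => by
    show c.1 (cj (g * h) a) = c.1 (cj h (cj g a))
    exact congrArg c.1 (Subtype.ext (show (g * h)⁻¹ * a.1 * (g * h) = h⁻¹ * (g⁻¹ * a.1 * g) * h by group)))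
  letI : MulAction G X := { smul := act, one_smul := act_one, mul_smul := act_mul }
  let φ := MulAction.toPermHom G X
  rcases hnor φ.ker inferInstance with h | h
  · exact (no_small_action (five_le_of_nine hr) π hπ hcard φ h).elim
  have hinv : ∀ g, ∀ w ∈ Esp c₀, (ρ g : End k V) w ∈ Esp c₀ := by
    intro g w hw
    have hg : φ g = 1 := MonoidHom.mem_ker.1 (by rw [h]; exact Subgroup.mem_top g)
    have h1 : (act g ⟨c₀, hne⟩).1 = c₀ := congrArg Subtype.val (Equiv.ext_iff.1 hg ⟨c₀, hne⟩)
    exact h1 ▸ hmove g c₀ w hw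
  have htop := (hirr _ hinv).resolve_left hne
  refine fun a ha => ⟨c₀ ⟨a, ha⟩, LinearMap.ext fun v => ?_⟩
  exact (hEsp c₀ v).1 (htop ▸ Submodule.mem_top) ⟨a, ha⟩

end

section Sylow

variable [IsAlgClosed k] [FiniteDimensional k V] {π : G →* alternatingGroup (Fin r)}
  {ρ : G →* (End k V)ˣ} (hρ : Function.Injective ρ)
  (habn : ∀ A : Subgroup G, A.Normal → (∀ a ∈ A, ∀ b ∈ A, a * b = b * a) → ∀ a ∈ A, IsScalarElt ρ a)
  {q : ℕ} [Fact q.Prime] {Q : Subgroup G} (hnorm : Q.Normal) (hQp : IsPGroup q Q)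

include hρ habn hnorm hQp

theorem commutator_scalar_of_pgroup : ∀ x ∈ ⁅Q, Q⁆, IsScalarElt ρ x := by
  -- commutators are scalar
  let s : ℕ → Subgroup G := fun i => (fun S => ⁅S, Q⁆)^[i] ⁅Q, Q⁆
  have hs : ∀ i, s i ≤ (Subgroup.lowerCentralSeries (⊤ : Subgroup Q) (i + 1)).map Q.subtype := by
    intro i
    induction i with
    | zero =>
      rw [show s 0 = ⁅Q, Q⁆ from rfl, Subgroup.lowerCentralSeries_succ, Subgroup.lowerCentralSeries_zero,
        Subgroup.map_commutator, ← MonoidHom.range_eq_map, Subgroup.range_subtype]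
    | succ i ih =>
      rw [show s (i + 1) = ⁅s i, Q⁆ from Function.iterate_succ_apply' _ i _, Subgroup.lowerCentralSeries_succ,
        Subgroup.map_commutator]
      exact Subgroup.commutator_mono ih (by rw [← MonoidHom.range_eq_map, Subgroup.range_subtype])
  have hs0 : ∀ i, s i ≤ ⁅Q, Q⁆ := by
    intro i
    induction i with
    | zero => exact le_rfl
    | succ i ih =>
      rw [show s (i + 1) = ⁅s i, Q⁆ from Function.iterate_succ_apply' _ i _]
      refine Subgroup.commutator_mono (ih.trans ?_) le_rfl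
      exact Subgroup.commutator_le_self Q
  obtain ⟨N, hN⟩ : ∃ N, s N = ⊥ := by
    obtain ⟨N, hN⟩ := Subgroup.nilpotent_iff_lowerCentralSeries.1 hQp.isNilpotent
    have h := (hs N).trans (Subgroup.map_mono (Subgroup.lowerCentralSeries_antitone ⊤ (Nat.le_succ N)))
    rw [hN, Subgroup.map_bot] at h
    exact ⟨N, le_bot_iff.1 h⟩
  have hDsc : ∀ x ∈ ⁅Q, Q⁆, IsScalarElt ρ x := by
    suffices h : ∀ j i, N ≤ i + j → ∀ x ∈ s i, IsScalarElt ρ x from h N 0 (by omega)
    intro j
    induction j with
    | zero =>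
      intro i hi x hx
      have : s i = ⊥ := by
        obtain ⟨c, rfl⟩ := Nat.exists_eq_add_of_le (by simpa using hi)
        clear hx hi
        induction c with
        | zero => exact hN
        | succ c ih =>
          rw [show s (N + (c + 1)) = ⁅s (N + c), Q⁆ from Function.iterate_succ_apply' _ (N + c) _, ih,
            Subgroup.commutator_bot_left]
      rw [this, Subgroup.mem_bot] at hx
      exact hx ▸ (scalarSubgroup ρ).one_mem
    | succ j ih =>
      intro i hi x hx
      -- elements of the derived group commuting with `Q` up to scalars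
      let A : Subgroup G :=
        { carrier := {y | y ∈ ⁅Q, Q⁆ ∧ ∀ z ∈ Q, IsScalarElt ρ ⁅y, z⁆}
          one_mem' := ⟨one_mem _, fun z _ => by rw [commutatorElement_one_left]; exact (scalarSubgroup ρ).one_mem⟩
          mul_mem' := fun {a b} ha hb => ⟨mul_mem ha.1 hb.1, fun z hz => by
            rw [show ⁅a * b, z⁆ = (a * ⁅b, z⁆ * a⁻¹) * ⁅a, z⁆ by simp only [commutatorElement_def]; group,
              ← isScalarElt_commute hρ (hb.2 z hz) a, mul_inv_cancel_right]
            exact (scalarSubgroup ρ).mul_mem (hb.2 z hz) (ha.2 z hz)⟩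
          inv_mem' := fun {a} ha => ⟨inv_mem ha.1, fun z hz => by
            have h := isScalarElt_commute hρ (ha.2 z hz)
            rw [show ⁅a⁻¹, z⁆ = a⁻¹ * ⁅a, z⁆⁻¹ * a by simp only [commutatorElement_def]; group,
              ← isScalarElt_commute hρ ((scalarSubgroup ρ).inv_mem (ha.2 z hz)) a⁻¹, inv_mul_cancel_right]
            exact (scalarSubgroup ρ).inv_mem (ha.2 z hz)⟩ }
      have hAn : A.Normal := ⟨fun y hy g => by
        refine ⟨(Subgroup.commutator_normal Q Q).conj_mem y hy.1 g, fun z hz => ?_⟩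
        have h := hy.2 (g⁻¹ * z * g) (by simpa using hnorm.conj_mem z hz g⁻¹)
        rw [show ⁅g * y * g⁻¹, z⁆ = g * ⁅y, g⁻¹ * z * g⁆ * g⁻¹ by simp only [commutatorElement_def]; group,
          ← isScalarElt_commute hρ h g, mul_inv_cancel_right]
        exact h⟩
      have hAab : ∀ a ∈ A, ∀ b ∈ A, a * b = b * a := by
        intro a ha b hb
        rw [← commutatorElement_eq_one_iff_mul_comm]
        let C : Subgroup G :=
          { carrier := {z | z ∈ Q ∧ ⁅a, z⁆ = 1}
            one_mem' := ⟨one_mem _, commutatorElement_one_right a⟩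
            mul_mem' := fun {u v} hu hv => ⟨mul_mem hu.1 hv.1, by
              rw [show ⁅a, u * v⁆ = ⁅a, u⁆ * (u * ⁅a, v⁆ * u⁻¹) by simp only [commutatorElement_def]; group,
                hu.2, hv.2]; simp⟩
            inv_mem' := fun {u} hu => ⟨inv_mem hu.1, by
              rw [show ⁅a, u⁻¹⁆ = u⁻¹ * ⁅a, u⁆⁻¹ * u by simp only [commutatorElement_def]; group, hu.2]; simp⟩ }
        have hC : ⁅Q, Q⁆ ≤ C := by
          rw [Subgroup.commutator_le]
          intro u hu v hv
          refine ⟨Subgroup.commutator_le_self Q (Subgroup.commutator_mem_commutator hu hv), ?_⟩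
          -- `z ↦ ⁅a, z⁆` is a homomorphism to scalars
          have hmul : ∀ u v, u ∈ Q → v ∈ Q → ⁅a, u * v⁆ = ⁅a, u⁆ * ⁅a, v⁆ := fun u v hu hv => by
            rw [show ⁅a, u * v⁆ = ⁅a, u⁆ * (u * ⁅a, v⁆ * u⁻¹) by simp only [commutatorElement_def]; group,
              ← isScalarElt_commute hρ (ha.2 v hv) u, mul_inv_cancel_right]
          have hinv : ∀ u ∈ Q, ⁅a, u⁻¹⁆ = ⁅a, u⁆⁻¹ := fun u hu => by
            refine eq_inv_of_mul_eq_one_left ?_
            rw [← hmul _ _ (inv_mem hu) hu, inv_mul_cancel, commutatorElement_one_right]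
          rw [commutatorElement_def u v, hmul _ _ (mul_mem (mul_mem hu hv) (inv_mem hu)) (inv_mem hv),
            hmul _ _ (mul_mem hu hv) (inv_mem hu), hmul _ _ hu hv, hinv _ hu, hinv _ hv,
            isScalarElt_commute hρ (ha.2 u hu) ⁅a, v⁆, mul_inv_cancel_right, mul_inv_cancel]
        exact (hC hb.1).2
      refine habn A hAn hAab x ⟨hs0 i hx, fun z hz => ih (i + 1) (by omega) _ ?_⟩
      rw [show s (i + 1) = ⁅s i, Q⁆ from Function.iterate_succ_apply' _ i _]
      exact Subgroup.commutator_mem_commutator hx hz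
  exact hDsc

theorem exponent_mod_scalar : (∀ u ∈ Q, ∀ v ∈ Q, IsScalarElt ρ ⁅u, v⁆) ∧ ∀ u ∈ Q, IsScalarElt ρ (u ^ q) := by
  have hDsc := commutator_scalar_of_pgroup hρ habn hnorm hQp
  have hc : ∀ u ∈ Q, ∀ v ∈ Q, IsScalarElt ρ ⁅u, v⁆ := fun u hu v hv =>
    hDsc _ (Subgroup.commutator_mem_commutator hu hv)
  have hpow : ∀ u ∈ Q, ∀ v ∈ Q, ∀ t : ℕ, ⁅u ^ t, v⁆ = ⁅u, v⁆ ^ t := by
    intro u hu v hv t
    induction t with
    | zero => simp [commutatorElement_one_left]
    | succ t ih =>
      rw [pow_succ, show ⁅u ^ t * u, v⁆ = (u ^ t * ⁅u, v⁆ * (u ^ t)⁻¹) * ⁅u ^ t, v⁆ by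
        simp only [commutatorElement_def]; group, ← isScalarElt_commute hρ (hc u hu v hv) (u ^ t),
        mul_inv_cancel_right, ih, pow_succ']
  have hq1 : ∀ u ∈ Q, ∀ v ∈ Q, ⁅u, v⁆ ^ q = 1 := by
    obtain ⟨e, he⟩ := IsPGroup.iff_card.1 hQp
    suffices h : ∀ f, f + 1 ≤ e + 1 → ∀ u ∈ Q, ∀ v ∈ Q, ⁅u, v⁆ ^ q ^ (e + 1 - f) = 1 by
      intro u hu v hv
      simpa using h e le_rfl u hu v hv
    intro f
    induction f with
    | zero =>
      intro _ u hu v hv
      have h : (⟨⁅u, v⁆, Subgroup.commutator_le_self Q (Subgroup.commutator_mem_commutator hu hv)⟩ : Q) ^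
          Nat.card Q = 1 := pow_card_eq_one'
      have h' := congrArg Subtype.val h
      simp only [SubgroupClass.coe_pow, OneMemClass.coe_one, he] at h'
      rw [Nat.sub_zero, pow_succ, pow_mul, h', one_pow]
    | succ f ih =>
      intro hf u hu v hv
      set t := q ^ (e + 1 - (f + 1)) with ht
      have hsq : ∀ x ∈ Q, ∀ y ∈ Q, ⁅x ^ t, y ^ t⁆ = 1 := fun x hx y hy => by
        rw [hpow x hx _ (pow_mem hy t) t, ← commutatorElement_inv (y ^ t) x, hpow y hy x hx t, ← inv_pow,
          commutatorElement_inv, ← pow_mul, ht, ← pow_add,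
          show e + 1 - (f + 1) + (e + 1 - (f + 1)) = (e + 1 - f) + (e - f - 1) by omega, pow_add, pow_mul,
          ih (by omega) x hx y hy, one_pow]
      let T : Subgroup G := Subgroup.closure ((fun x => x ^ t) '' (Q : Set G))
      have hT : T.Normal := ⟨fun y hy g => by
        have hle : T ≤ T.comap (MulAut.conj g).toMonoidHom := by
          rw [Subgroup.closure_le]
          rintro _ ⟨x, hx, rfl⟩
          exact Subgroup.subset_closure ⟨g * x * g⁻¹, hnorm.conj_mem x hx g, conj_pow⟩
        exact hle hy⟩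
      have hTab : ∀ a ∈ T, ∀ b ∈ T, a * b = b * a := by
        have : IsMulCommutative T := Subgroup.isMulCommutative_closure (by
          rintro _ ⟨x, hx, rfl⟩ _ ⟨y, hy, rfl⟩
          exact commutatorElement_eq_one_iff_mul_comm.1 (hsq x hx y hy))
        exact fun a ha b hb => congrArg Subtype.val (mul_comm' (⟨a, ha⟩ : T) ⟨b, hb⟩)
      have hsc := habn T hT hTab (u ^ t) (Subgroup.subset_closure ⟨u, hu, rfl⟩)
      rw [← hpow u hu v hv t, commutatorElement_eq_one_iff_mul_comm]
      exact isScalarElt_commute hρ hsc v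
  have hcent : ∀ u ∈ Q, (∀ v ∈ Q, u * v = v * u) → IsScalarElt ρ u := by
    let C : Subgroup G := Q ⊓ Subgroup.centralizer (Q : Set G)
    have hC : C.Normal := Subgroup.normal_inf_normal _ _
    exact fun u hu h => habn C hC (fun a ha b hb => ((Subgroup.mem_inf.1 hb).2 a (Subgroup.mem_inf.1 ha).1)) u
      (Subgroup.mem_inf.2 ⟨hu, fun v hv => (h v hv).symm⟩)
  have hxq : ∀ u ∈ Q, IsScalarElt ρ (u ^ q) := fun u hu => hcent _ (pow_mem hu q) fun v hv => by
    rw [← commutatorElement_eq_one_iff_mul_comm, hpow u hu v hv q, hq1 u hu v hv]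
  exact ⟨hc, hxq⟩

theorem normal_pgroup_scalar (hr : 9 ≤ r) (hπsurj : Function.Surjective π) {n : ℕ} (hn : finrank k V = n) (hnr : n + 2 ≤ r)
    (hnor : ∀ N : Subgroup G, N.Normal → N ≤ π.ker ∨ N = ⊤)
    (hsec : ∀ d < n, ∀ (q : ℕ) [Fact q.Prime]
      (ψ : G →* (End (AlgebraicClosure (ZMod q)) (Fin d → AlgebraicClosure (ZMod q)))ˣ), ψ.ker ≤ π.ker → r - 2 ≤ d) :
    ∀ x ∈ Q, IsScalarElt ρ x := by
  have hq : q.Prime := Fact.out
  obtain ⟨hc, hxq⟩ := exponent_mod_scalar hρ habn hnorm hQp
  obtain ⟨a₀, b₀, hab₀⟩ := exists_not_commute (five_le_of_nine hr)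
  have hcomm : ∀ S : Subgroup G, (∀ x y : G, x * y * x⁻¹ * y⁻¹ ∈ S) → S.Normal → S = ⊤ := by
    intro S hS hN
    refine (hnor S hN).resolve_left fun h => hab₀ ?_
    obtain ⟨x, rfl⟩ := hπsurj a₀
    obtain ⟨y, rfl⟩ := hπsurj b₀
    have := MonoidHom.mem_ker.1 (h (hS x y))
    rw [map_mul, map_mul, map_mul, map_inv, map_inv, mul_inv_eq_one, mul_inv_eq_iff_eq_mul] at this
    exact this
  let Z : Subgroup Q := (scalarSubgroup ρ).subgroupOf Q
  have hZ : ∀ z : Q, z ∈ Z ↔ IsScalarElt ρ z.1 := fun z => Iff.rfl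
  have : Z.Normal := ⟨fun z hz g => by
    rw [hZ] at hz ⊢
    rw [Subgroup.coe_mul, Subgroup.coe_mul, Subgroup.coe_inv, ← isScalarElt_commute hρ hz g.1,
      mul_inv_cancel_right]
    exact hz⟩
  have hcent : ∀ u ∈ Q, (∀ v ∈ Q, u * v = v * u) → IsScalarElt ρ u := by
    let C : Subgroup G := Q ⊓ Subgroup.centralizer (Q : Set G)
    have hC : C.Normal := Subgroup.normal_inf_normal _ _
    exact fun u hu h => habn C hC (fun a ha b hb => ((Subgroup.mem_inf.1 hb).2 a (Subgroup.mem_inf.1 ha).1)) u
      (Subgroup.mem_inf.2 ⟨hu, fun v hv => (h v hv).symm⟩)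
  -- the quotient by scalars
  let W := Q ⧸ Z
  let instW : CommGroup W :=
    { (inferInstance : Group W) with
      mul_comm := fun a b => by
        induction a using QuotientGroup.induction_on with | _ a => ?_
        induction b using QuotientGroup.induction_on with | _ b => ?_
        rw [← QuotientGroup.mk_mul, ← QuotientGroup.mk_mul, QuotientGroup.eq, hZ]
        have h := hc b.1⁻¹ (inv_mem b.2) a.1⁻¹ (inv_mem a.2)
        simpa [commutatorElement_def, mul_assoc] using h }
  let Wa := Additive W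
  have : Module (ZMod q) Wa := AddCommGroup.zmodModule (fun w => by
    obtain ⟨a, ha⟩ := QuotientGroup.mk_surjective (Additive.toMul w)
    apply Additive.toMul.injective
    rw [toMul_nsmul, ← ha, ← QuotientGroup.mk_pow, toMul_zero, QuotientGroup.eq_one_iff, hZ]
    exact hxq a.1 a.2)
  -- bound on the order
  have hWcard : Nat.card W ≤ n * n := by
    have : Fintype W := Fintype.ofFinite W
    rw [Nat.card_eq_fintype_card]
    let x : W → Q := fun w => w.out
    let f : Q → End k (End k V) := fun y =>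
      (LinearMap.mulLeft k (ρ y.1 : End k V)).comp (LinearMap.mulRight k (↑(ρ y.1)⁻¹ : End k V))
    have hc' : ∀ (y u : Q), ∃ c : k, (ρ ⁅y.1, u.1⁆ : End k V) = c • 1 := fun y u => hc _ y.2 _ u.2
    choose c hc' using hc'
    have hf : ∀ y u : Q, f y (ρ u.1 : End k V) = c y u • (ρ u.1 : End k V) := fun y u => by
      rw [← smul_one_mul (c y u), ← hc']
      simp only [f, LinearMap.comp_apply, LinearMap.mulLeft_apply, LinearMap.mulRight_apply]
      rw [← map_inv, ← Units.val_mul, ← Units.val_mul, ← Units.val_mul, ← map_mul, ← map_mul, ← map_mul]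
      congr 2
      simp only [commutatorElement_def]
      group
    have hχ : ∀ w w' : W, w ≠ w' → ∃ y, c y (x w) ≠ c y (x w') := by
      intro w w' hne
      by_contra! h
      refine hne ?_
      rw [← QuotientGroup.out_eq' w, ← QuotientGroup.out_eq' w', QuotientGroup.eq, hZ]
      refine hcent _ (Subtype.mem _) fun v hv => ?_
      have e : ⁅v, (x w).1⁆ = ⁅v, (x w').1⁆ := by
        apply hρ
        ext1
        rw [hc' ⟨v, hv⟩ (x w), hc' ⟨v, hv⟩ (x w'), h]
      change ((x w).1)⁻¹ * (x w').1 * v = v * (((x w).1)⁻¹ * (x w').1)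
      have hcm := isScalarElt_commute hρ (hc v hv (x w).1 (x w).2)
      have e1 : v * (x w).1 * v⁻¹ = ⁅v, (x w).1⁆ * (x w).1 := by simp only [commutatorElement_def]; group
      have e2 : v * (x w').1 * v⁻¹ = ⁅v, (x w).1⁆ * (x w').1 := by
        rw [e]; simp only [commutatorElement_def]; group
      symm
      rw [← mul_inv_eq_iff_eq_mul]
      calc v * ((x w).1⁻¹ * (x w').1) * v⁻¹ = (v * (x w).1 * v⁻¹)⁻¹ * (v * (x w').1 * v⁻¹) := by group
        _ = (x w).1⁻¹ * (x w').1 := by rw [e1, e2]; group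
    have hdim := sum_finrank_le f (fun w y => c y (x w)) hχ (fun w => Submodule.span k {(ρ (x w).1 : End k V)})
      (fun w v hv y => by
        obtain ⟨s, rfl⟩ := Submodule.mem_span_singleton.1 hv
        rw [map_smul, hf, smul_comm])
    rw [finrank_linearMap, hn] at hdim
    refine le_trans ?_ hdim
    calc Fintype.card W = ∑ _w : W, 1 := by simp
      _ ≤ _ := Finset.sum_le_sum fun w _ => ?_
    rw [finrank_span_singleton]
    have : Nontrivial V := by
      by_contra hV
      rw [not_nontrivial_iff_subsingleton] at hV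
      have hsub : Subsingleton (End k V) := ⟨fun a b => LinearMap.ext fun v => Subsingleton.elim _ _⟩
      exact hab₀ (by
        obtain ⟨a, rfl⟩ := hπsurj a₀
        obtain ⟨b, rfl⟩ := hπsurj b₀
        rw [hρ (Units.ext (Subsingleton.elim (ρ a : End k V) (ρ 1 : End k V)))]
        simp)
    exact Units.ne_zero _
  -- the action of the group
  let ψ : G →* End (ZMod q) Wa :=
    { toFun := fun g => (MonoidHom.toAdditive (QuotientGroup.map Z Z
          (((MulAut.conjNormal g : MulAut Q)).toMonoidHom) (fun z hz => by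
            rw [Subgroup.mem_comap, hZ]
            change IsScalarElt ρ (g * z.1 * g⁻¹)
            rw [← isScalarElt_commute hρ ((hZ z).1 hz) g, mul_inv_cancel_right]
            exact (hZ z).1 hz))).toZModLinearMap q
      map_one' := LinearMap.ext fun w => by
        obtain ⟨a, ha⟩ := QuotientGroup.mk_surjective (Additive.toMul w)
        rw [show w = Additive.ofMul (QuotientGroup.mk a) by rw [ha]; rfl]
        change Additive.ofMul (QuotientGroup.mk ((MulAut.conjNormal (1 : G)) a)) = _
        simp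
      map_mul' := fun g h => LinearMap.ext fun w => by
        obtain ⟨a, ha⟩ := QuotientGroup.mk_surjective (Additive.toMul w)
        rw [show w = Additive.ofMul (QuotientGroup.mk a) by rw [ha]; rfl]
        change Additive.ofMul (QuotientGroup.mk ((MulAut.conjNormal (g * h)) a)) =
          Additive.ofMul (QuotientGroup.mk ((MulAut.conjNormal g) ((MulAut.conjNormal h) a)))
        simp }
  have htriv : ψ.toHomUnits.ker = ⊤ := by
    refine (hnor _ inferInstance).resolve_left fun hk => ?_
    obtain ⟨d, e, he, hd1, hd2⟩ := exists_embed_end q Wa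
    have hdn : q ^ d ≤ n * n := by rw [← hd1]; exact hWcard
    have h2 : 2 ^ d ≤ n * n := le_trans (Nat.pow_le_pow_left hq.two_le d) hdn
    by_cases hlt2 : d < n
    · have h := hsec d hlt2 q (e.comp ψ).toHomUnits (fun g hg => hk (MonoidHom.mem_ker.2 (Units.ext (he (by
          rw [Units.val_one, map_one]
          exact congrArg Units.val (MonoidHom.mem_ker.1 hg))))))
      have h3 : 2 ^ (r - 2) ≤ n * n :=
        le_trans (Nat.pow_le_pow_right two_pos h) h2
      have h4 := sq_lt_two_pow (show 5 ≤ r - 2 by omega)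
      have h5 : n ≤ r - 2 := by omega
      have := Nat.mul_le_mul h5 h5
      omega
    · have hn4 : n ≤ 4 := by
        by_contra h
        have h4 := sq_lt_two_pow (show 5 ≤ n by omega)
        have := Nat.pow_le_pow_right two_pos (not_lt.1 hlt2)
        omega
      have h16 : q ^ d ≤ 16 := le_trans hdn (le_trans (Nat.mul_le_mul hn4 hn4) (by norm_num))
      have hd4 : d ≤ 4 := by
        by_contra h
        have := Nat.pow_le_pow_right two_pos (show 5 ≤ d by omega)
        have h' := le_trans (Nat.pow_le_pow_left hq.two_le d) h16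
        omega
      have hbig : q ^ (d * d) ≤ 65536 := by
        rw [pow_mul]
        exact le_trans (Nat.pow_le_pow_left h16 d) (le_trans (Nat.pow_le_pow_right (by norm_num) hd4) (by norm_num))
      have h1 := Nat.le_of_dvd (Nat.pos_of_ne_zero Subgroup.index_ne_zero_of_finite)
        (Subgroup.index_dvd_of_le hk)
      rw [Subgroup.index_ker, MonoidHom.range_eq_top.2 hπsurj, Subgroup.card_top] at h1
      have hfin : Finite (End (ZMod q) Wa) := Nat.finite_of_card_ne_zero (by rw [hd2]; exact (pow_pos hq.pos _).ne')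
      have h2' : Nat.card ψ.toHomUnits.range ≤ Nat.card (End (ZMod q) Wa) :=
        le_trans (Subgroup.card_le_card_group _) (Nat.card_le_card_of_injective _ Units.val_injective)
      rw [Subgroup.index_ker] at h1
      have := card_alt_ge hr
      omega
  intro u hu
  refine hcent u hu fun v hv => ?_
  let C : Subgroup G := Subgroup.centralizer (Q : Set G)
  have hCn : C.Normal := inferInstance
  have hCtop : C = ⊤ := by
    refine hcomm C (fun a b => ?_) hCn
    intro w hw
    have hgw : ∀ g : G, ∀ w ∈ Q, IsScalarElt ρ (g * w * g⁻¹ * w⁻¹) := by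
      intro g w hw
      have h := LinearMap.congr_fun (congrArg Units.val (MonoidHom.mem_ker.1 (htriv ▸ Subgroup.mem_top g :)))
        (Additive.ofMul (QuotientGroup.mk (⟨w, hw⟩ : Q)))
      have h' : (QuotientGroup.mk ((MulAut.conjNormal g) (⟨w, hw⟩ : Q)) : W) = QuotientGroup.mk ⟨w, hw⟩ :=
        Additive.ofMul.injective h
      have h3 := (hZ _).1 (QuotientGroup.eq.1 h'.symm)
      rw [Subgroup.coe_mul, Subgroup.coe_inv, MulAut.conjNormal_apply] at h3
      have h4 := isScalarElt_commute hρ h3 w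
      rwa [show g * w * g⁻¹ * w⁻¹ = w⁻¹ * (g * w * g⁻¹) from ?_]
      symm
      rw [eq_mul_inv_iff_mul_eq, h4]
      group
    symm
    rw [← mul_inv_eq_iff_eq_mul]
    -- conjugation by `g` multiplies by a scalar
    let φ : G → G := fun g => g * w * g⁻¹ * w⁻¹
    have hφ : ∀ g h, g * h * w * (g * h)⁻¹ * w⁻¹ = φ g * φ h := fun g h => by
      rw [isScalarElt_commute hρ (hgw g w hw) (φ h)]
      calc g * h * w * (g * h)⁻¹ * w⁻¹ = (g * φ h * g⁻¹) * φ g := by simp only [φ]; group
        _ = φ h * φ g := by rw [← isScalarElt_commute hρ (hgw h w hw) g, mul_inv_cancel_right]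
    have hinv : ∀ g, φ g⁻¹ = (φ g)⁻¹ := fun g => by
      refine eq_inv_of_mul_eq_one_left ?_
      rw [← hφ]; group
    have h : φ (a * b * a⁻¹ * b⁻¹) = 1 := by
      change (a * b * a⁻¹ * b⁻¹) * w * (a * b * a⁻¹ * b⁻¹)⁻¹ * w⁻¹ = 1
      rw [hφ, show φ (a * b * a⁻¹) = φ (a * b) * φ a⁻¹ from hφ _ _, show φ (a * b) = φ a * φ b from hφ _ _,
        hinv, hinv, isScalarElt_commute hρ (hgw a w hw) (φ b), mul_inv_cancel_right, mul_inv_cancel]
    exact mul_inv_eq_one.1 h
  exact ((hCtop ▸ Subgroup.mem_top v : v ∈ C) u hu)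

end Sylow

/-- The reduction. -/
theorem sectionBound_of_cover (hr : 9 ≤ r)
    (hcov : ∀ p : ℕ, p.Prime → ∀ (k : Type) [Field k] [IsAlgClosed k] [CharP k p] (V : Type) [AddCommGroup V]
      [Module k V] [FiniteDimensional k V], Cover k V r → degBound r p ≤ finrank k V) : SectionBound r := by
  classical
  suffices H : ∀ n m : ℕ, ∀ p : ℕ, p.Prime → ∀ (k : Type) [Field k] [IsAlgClosed k] [CharP k p] (V : Type)
      [AddCommGroup V] [Module k V] [FiniteDimensional k V] (G : Type) [Group G] [Finite G]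
      (π : G →* alternatingGroup (Fin r)) (ρ : G →* (End k V)ˣ), Function.Surjective π → ρ.ker ≤ π.ker →
      finrank k V = n → Nat.card G = m → degBound r p ≤ finrank k V by
    intro p hp k _ _ _ V _ _ _ G _ _ π ρ h1 h2
    exact H _ _ p hp k V G π ρ h1 h2 rfl rfl
  intro n
  induction n using Nat.strong_induction_on with
  | _ n ihn =>
  intro m
  induction m using Nat.strong_induction_on with
  | _ m ihm =>
  intro p hp k _ _ _ V _ _ _ G _ _ π ρ hπ hker hn hm
  by_contra hlt
  push Not at hlt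
  have hsimple : IsSimpleGroup (alternatingGroup (Fin r)) :=
    alternatingGroup.isSimpleGroup (by simp; omega)
  obtain ⟨a₀, b₀, hab₀⟩ := exists_not_commute (five_le_of_nine hr)
  have hnr : finrank k V < r := by have := degBound_le r p; omega
  -- faithful
  have hρ : Function.Injective ρ := by
    rw [← MonoidHom.ker_eq_bot_iff]
    by_contra hne
    have hlt' : Nat.card (G ⧸ ρ.ker) < m := by
      have h := Subgroup.card_eq_card_quotient_mul_card_subgroup ρ.ker
      have h2 : 1 < Nat.card ρ.ker := Subgroup.one_lt_card_iff_ne_bot _ |>.2 hne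
      have h3 : 0 < Nat.card (G ⧸ ρ.ker) := Nat.card_pos
      rw [← hm, h]
      exact (lt_mul_iff_one_lt_right h3).2 h2
    have := ihm _ hlt' p hp k V (G ⧸ ρ.ker) (QuotientGroup.lift ρ.ker π hker) (QuotientGroup.kerLift ρ)
      (QuotientGroup.lift_surjective_of_surjective _ _ hπ hker)
      (by rw [(MonoidHom.ker_eq_bot_iff _).2 (QuotientGroup.kerLift_injective ρ)]; exact bot_le) hn rfl
    omega
  -- minimal
  have hmin : ∀ S : Subgroup G, Function.Surjective (π.comp S.subtype) → S = ⊤ := by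
    intro S hS
    by_contra hne
    have hlt' : Nat.card S < m := hm ▸ lt_of_le_of_ne (Subgroup.card_le_card_group S)
      (fun e => hne (Subgroup.eq_top_of_card_eq S e))
    have := ihm _ hlt' p hp k V S (π.comp S.subtype) (ρ.comp S.subtype) hS
      (fun x hx => MonoidHom.mem_ker.2 (MonoidHom.mem_ker.1 (hker (MonoidHom.mem_ker.2 (MonoidHom.mem_ker.1 hx :)))))
      hn rfl
    omega
  have hnor : ∀ N : Subgroup G, N.Normal → N ≤ π.ker ∨ N = ⊤ := by
    intro N hN
    have : (N.map π).Normal := hN.map π hπ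
    rcases Subgroup.Normal.eq_bot_or_eq_top this with h | h
    · exact Or.inl ((Subgroup.map_eq_bot_iff N).1 h)
    · refine Or.inr (hmin N ?_)
      intro y
      obtain ⟨x, hx, rfl⟩ := (h ▸ Subgroup.mem_top y : y ∈ N.map π)
      exact ⟨⟨x, hx⟩, rfl⟩
  have hcomm : ∀ S : Subgroup G, (∀ x y : G, x * y * x⁻¹ * y⁻¹ ∈ S) → S.Normal → S = ⊤ := by
    intro S hS hN
    refine (hnor S hN).resolve_left fun h => hab₀ ?_
    obtain ⟨x, rfl⟩ := hπ a₀
    obtain ⟨y, rfl⟩ := hπ b₀
    have := MonoidHom.mem_ker.1 (h (hS x y))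
    rw [map_mul, map_mul, map_mul, map_inv, map_inv, mul_inv_eq_one, mul_inv_eq_iff_eq_mul] at this
    exact this
  -- irreducible
  have hirr : ∀ U : Submodule k V, (∀ g, ∀ w ∈ U, (ρ g : End k V) w ∈ U) → U = ⊥ ∨ U = ⊤ := by
    intro U hU
    by_contra! hcon
    have hsub : finrank k U < n := hn ▸ Submodule.finrank_lt hcon.2
    have hquot : finrank k (V ⧸ U) < n := by
      have h := Submodule.finrank_quotient_add_finrank U
      have h2 : 0 < finrank k U := Submodule.one_le_finrank_iff.2 hcon.1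
      omega
    let resU : G →* End k U :=
      { toFun := fun g => (ρ g : End k V).restrict (hU g)
        map_one' := LinearMap.ext fun w => Subtype.ext (by simp)
        map_mul' := fun x y => LinearMap.ext fun w => Subtype.ext (by simp) }
    let resQ : G →* End k (V ⧸ U) :=
      { toFun := fun g => U.mapQ U (ρ g : End k V) (hU g)
        map_one' := Submodule.linearMap_qext _ (LinearMap.ext fun w => by simp)
        map_mul' := fun x y => Submodule.linearMap_qext _ (LinearMap.ext fun w => by simp) }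
    have h1 : resU.toHomUnits.ker = ⊤ := by
      refine (hnor _ inferInstance).resolve_left fun h => ?_
      have := ihn _ hsub _ p hp k U G π resU.toHomUnits hπ h rfl rfl
      omega
    have h2 : resQ.toHomUnits.ker = ⊤ := by
      refine (hnor _ inferInstance).resolve_left fun h => ?_
      have := ihn _ hquot _ p hp k (V ⧸ U) G π resQ.toHomUnits hπ h rfl rfl
      omega
    have hfix : ∀ g, ∀ w ∈ U, (ρ g : End k V) w = w := fun g w hw => by
      have hg : resU g = 1 := congrArg Units.val (MonoidHom.mem_ker.1 (h1 ▸ Subgroup.mem_top g :))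
      exact congrArg Subtype.val (LinearMap.congr_fun hg ⟨w, hw⟩)
    have hdiff : ∀ g v, (ρ g : End k V) v - v ∈ U := fun g v => by
      have hg : resQ g = 1 := congrArg Units.val (MonoidHom.mem_ker.1 (h2 ▸ Subgroup.mem_top g :))
      exact (Submodule.Quotient.eq U).1 (LinearMap.congr_fun hg (Submodule.Quotient.mk v))
    refine hab₀ ?_
    obtain ⟨x, rfl⟩ := hπ a₀
    obtain ⟨y, rfl⟩ := hπ b₀
    rw [← map_mul, ← map_mul]
    congr 1
    apply hρ
    ext1
    rw [map_mul, map_mul, Units.val_mul, Units.val_mul]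
    refine LinearMap.ext fun v => ?_
    have e1 := hfix x _ (hdiff y v)
    have e2 := hfix y _ (hdiff x v)
    rw [map_sub] at e1 e2
    simp only [Module.End.mul_apply]
    linear_combination (norm := module) e1 - e2
  have habn := fun (A : Subgroup G) (hA : A.Normal) => abelian_normal_scalar hr hπ hnr hirr hnor A (hA := hA)
  let K := π.ker
  -- the Sylow subgroups of the kernel are scalar
  have hsyl : ∀ q : ℕ, q.Prime → ∀ P : Sylow q K, ∀ x ∈ (P : Subgroup K), IsScalarElt ρ x.1 := by
    intro q hq P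
    have : Fact q.Prime := ⟨hq⟩
    have hnorm : ((P : Subgroup K).map K.subtype).Normal := by
      rw [← Subgroup.normalizer_eq_top_iff]
      refine hmin _ fun y => ?_
      obtain ⟨x, rfl⟩ := hπ y
      have hx : x ∈ Subgroup.normalizer ((P : Subgroup K).map K.subtype : Set G) ⊔ K := by
        rw [Sylow.normalizer_sup_eq_top P]; exact Subgroup.mem_top x
      rw [Subgroup.mem_sup_of_normal_right] at hx
      obtain ⟨a, ha, b, hb, rfl⟩ := hx
      exact ⟨⟨a, ha⟩, by rw [map_mul, MonoidHom.mem_ker.1 hb, mul_one]; rfl⟩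
    suffices h : ∀ x ∈ (P : Subgroup K).map K.subtype, IsScalarElt ρ x from fun x hx => h x.1 ⟨x, hx, rfl⟩
    refine normal_pgroup_scalar hρ habn hnorm (P.2.map K.subtype) hr hπ hn ?_ hnor (fun d hd q' _ ψ hψ => ?_)
    · have := degBound_le r p
      omega
    have := ihn d hd _ q' Fact.out _ _ G π ψ hπ hψ (finrank_fin_fun _) rfl
    rw [finrank_fin_fun] at this
    have := le_degBound r q'
    omega
  -- the kernel is scalar
  have hK : ∀ x ∈ K, IsScalarElt ρ x := by
    intro x hx
    suffices h : (scalarSubgroup ρ).subgroupOf K = ⊤ from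
      (h ▸ Subgroup.mem_top (⟨x, hx⟩ : K) : (⟨x, hx⟩ : K) ∈ (scalarSubgroup ρ).subgroupOf K)
    refine Subgroup.eq_top_of_card_eq _ (Nat.dvd_antisymm (Subgroup.card_subgroup_dvd_card _) ?_)
    rw [Nat.dvd_iff_prime_pow_dvd_dvd]
    intro q e hq hdvd
    have : Fact q.Prime := ⟨hq⟩
    let P : Sylow q K := default
    have hle : (P : Subgroup K) ≤ (scalarSubgroup ρ).subgroupOf K := fun y hy => hsyl q hq P y hy
    exact (P.pow_dvd_card_of_pow_dvd_card hdvd).trans (Subgroup.card_dvd_of_le hle)
  -- assemble the cover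
  let sc : kˣ →* (End k V)ˣ := Units.map (algebraMap k (End k V)).toMonoidHom
  have hsc : ∀ (u : kˣ) (x : (End k V)ˣ), Commute (sc u) x := fun u x => by
    ext1
    exact Algebra.commutes (u : k) (x : End k V)
  let f : G × kˣ →* (End k V)ˣ := MonoidHom.noncommCoprod ρ sc (fun g u => (hsc u (ρ g)).symm)
  let f' := f.rangeRestrict
  have hf' : Function.Surjective f' := f.rangeRestrict_surjective
  have hfg : ∀ y : G × kˣ, ((f y : (End k V)ˣ) : End k V) = (y.2 : k) • (ρ y.1 : End k V) := fun y => by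
    change ((ρ y.1 * sc y.2 : (End k V)ˣ) : End k V) = _
    rw [Units.val_mul]
    change (ρ y.1 : End k V) * algebraMap k (End k V) (y.2 : k) = _
    rw [Algebra.algebraMap_eq_smul_one, mul_smul_one]
  have hsc_one : ∀ g, IsScalarElt ρ g → π g = 1 := by
    intro g hg
    have hcen : π g ∈ Subgroup.center (alternatingGroup (Fin r)) := Subgroup.mem_center_iff.2 fun y => by
      obtain ⟨x, rfl⟩ := hπ y
      rw [← map_mul, ← map_mul, isScalarElt_commute hρ hg x]
    rcases Subgroup.Normal.eq_bot_or_eq_top (H := Subgroup.center (alternatingGroup (Fin r))) inferInstance with h | h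
    · exact (Subgroup.mem_bot.1 (h ▸ hcen))
    · exact absurd (Subgroup.mem_center_iff.1 (h ▸ Subgroup.mem_top b₀) a₀) hab₀
  let π' : G × kˣ →* alternatingGroup (Fin r) := π.comp (MonoidHom.fst G kˣ)
  have hk' : f'.ker ≤ π'.ker := by
    intro y hy
    rw [MonoidHom.mem_ker] at hy ⊢
    have h := congrArg (fun z : f.range => ((z : (End k V)ˣ) : End k V)) hy
    simp only [f', MonoidHom.coe_rangeRestrict, OneMemClass.coe_one, Units.val_one, hfg] at h
    exact hsc_one y.1 ⟨((y.2⁻¹ : kˣ) : k), by rw [← h, smul_smul, Units.inv_mul, one_smul]⟩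
  let π₁ := f'.liftOfSurjective hf' ⟨π', hk'⟩
  have hπ₁ : ∀ y, π₁ (f' y) = π y.1 := fun y =>
    MonoidHom.liftOfRightInverse_comp_apply f' _ (Function.rightInverse_surjInv hf') ⟨π', hk'⟩ y
  let C : Cover k V r :=
    { H := f.range
      π := π₁
      surj := fun y => by
        obtain ⟨g, rfl⟩ := hπ y
        exact ⟨f' (g, 1), hπ₁ _⟩
      scalar_mem := fun u => ⟨(1, u), by simp [f, sc]⟩
      ker_iff := fun z => by
        obtain ⟨⟨g, u⟩, rfl⟩ := hf' z
        rw [hπ₁, show (((f' (g, u) : f.range) : (End k V)ˣ) : End k V) = (u : k) • (ρ g : End k V) from hfg _]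
        constructor
        · intro h
          obtain ⟨c, hc⟩ := hK g (MonoidHom.mem_ker.2 h)
          exact ⟨(u : k) * c, by rw [hc, smul_smul]⟩
        · rintro ⟨c, hc⟩
          exact hsc_one g ⟨((u⁻¹ : kˣ) : k) * c, by rw [← smul_smul, ← hc, smul_smul, Units.inv_mul, one_smul]⟩
      irred := fun U hU => hirr U fun g w hw => by
        simpa [f', hfg] using hU (f' (g, 1)) w hw
      core := ⟨(f'.comp (MonoidHom.inl G kˣ)).range, Set.finite_range _ |>.to_subtype, fun y => by
        obtain ⟨g, rfl⟩ := hπ y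
        exact ⟨⟨_, g, rfl⟩, hπ₁ _⟩⟩ }
  have := hcov p hp k V C
  omega

end CfsgLib.Classes.AltSections
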