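import Mathlib
import Cfsg.Agent.Lib.Classes.AltSections.RankMain
import Cfsg.Agent.Lib.Classes.AltSections.Lines
import Cfsg.Agent.Lib.Classes.AltSections.Reduce

/-!
From moved planes of three cycles to a configuration of lines.
-/

set_option autoImplicit false
set_option linter.unusedSectionVars false
set_option maxRecDepth 4000

open Module
open Fin.NatCast

namespace CfsgLib.Classes.AltSections

/-- Triples of indices reachable by left multiplications and reordering. -/
def reach {m : ℕ} (ls : List (Equiv.Perm (Fin m))) (t : Fin m × Fin m × Fin m) : ℕ → Finset (Fin m × Fin m × Fin m)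
  | 0 => {t}
  | N + 1 =>
    ls.foldr (fun c S => S ∪ (reach ls t N).image (fun x => (c x.1, c x.2.1, c x.2.2)))
      (reach ls t N ∪ (reach ls t N).image (fun x => (x.1, x.2.2, x.2.1)))

theorem five_reach : ∀ a b c : Fin 5, a ≠ b → b ≠ c → a ≠ c →
    (a, b, c) ∈ reach [Equiv.swap 0 1 * Equiv.swap 1 2, Equiv.swap 2 3 * Equiv.swap 3 4] (0, 1, 2) 9 := by
  decide +kernel

theorem four_reach : ∀ a b c : Fin 4, a ≠ b → b ≠ c → a ≠ c →
    (a, b, c) ∈ reach [Equiv.swap 0 1 * Equiv.swap 1 2, Equiv.swap 0 1 * Equiv.swap 1 3] (0, 1, 2) 7 := by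
  decide +kernel

namespace Cover

variable {k V : Type} [Field k] [AddCommGroup V] [Module k V] {r : ℕ} (C : Cover k V r) [Nontrivial V]
  [IsAlgClosed k] [FiniteDimensional k V]

/-- The moved space of a three cycle, as a function of its three points. -/
noncomputable def E3 (a b c : Fin r) : Submodule k V :=
  open Classical in
  if h : Function.Injective ![a, b, c] then C.moved (C.cyc ⟨![a, b, c], h⟩) else ⊥

theorem E3_eq (f : Fin 3 ↪ Fin r) : C.E3 (f 0) (f 1) (f 2) = C.moved (C.cyc f) := by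
  have hf : (![f 0, f 1, f 2] : Fin 3 → Fin r) = f := by funext i; fin_cases i <;> rfl
  rw [E3, dif_pos (hf ▸ f.injective)]
  congr 2
  exact Function.Embedding.ext fun i => congrFun hf i

theorem triple_injective {a b c : Fin r} (h1 : a ≠ b) (h2 : b ≠ c) (h3 : a ≠ c) : Function.Injective ![a, b, c] := by
  intro i j h
  fin_cases i <;> fin_cases j <;> simp_all [eq_comm]

theorem moved_sq_le (x : C.H) : C.moved (x ^ 2) ≤ C.moved x := by
  rintro _ ⟨w, rfl⟩
  refine ⟨C.el x w + w, ?_⟩
  simp only [pow_two, el_mul, LinearMap.sub_apply, Module.End.one_apply, Module.End.mul_apply, map_add]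
  abel

theorem E3_map_le (hr : 9 ≤ r) (h : C.H) (a b c : Fin r) :
    (C.E3 a b c).map (C.el h) ≤ C.E3 (C.perm h a) (C.perm h b) (C.perm h c) := by
  have : Fact (Nat.Prime 3) := ⟨Nat.prime_three⟩
  by_cases hinj : Function.Injective ![a, b, c]
  · obtain ⟨f, hf⟩ := exists_emb _ hinj
    have e0 : f 0 = a := hf 0
    have e1 : f 1 = b := hf 1
    have e2 : f 2 = c := hf 2
    subst e0 e1 e2
    rw [E3_eq, C.map_moved]
    have hc := C.cyc_conj hr (ℓ := 3) (by decide) (by omega) (f := f) (g := f.trans (C.perm h).toEmbedding) (h := h)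
      (s := 1) (by rw [pow_one]; exact conj_phi (fun i => rfl) _)
    rw [pow_one] at hc
    rw [hc, ← C.E3_eq (f.trans (C.perm h).toEmbedding)]
    exact le_rfl
  · rw [E3, dif_neg hinj, Submodule.map_bot]
    exact bot_le

theorem E3_swap (hr : 9 ≤ r) (a b c : Fin r) : C.E3 a b c ≤ C.E3 a c b ∧ C.E3 a b c ≤ C.E3 b a c := by
  have : Fact (Nat.Prime 3) := ⟨Nat.prime_three⟩
  by_cases hinj : Function.Injective ![a, b, c]
  · obtain ⟨f, hf⟩ := exists_emb _ hinj
    have e0 : f 0 = a := hf 0
    have e1 : f 1 = b := hf 1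
    have e2 : f 2 = c := hf 2
    subst e0 e1 e2
    have key : ∀ π : Equiv.Perm (Fin 3), finRotate 3 = (π * finRotate 3 * π⁻¹) ^ 2 →
        C.moved (C.cyc f) ≤ C.moved (C.cyc (π.toEmbedding.trans f)) := by
      intro π hπ
      have hc := C.cyc_conj hr (ℓ := 3) (by decide) (by omega) (f := f) (g := π.toEmbedding.trans f) (h := 1)
        (s := 2) (by rw [map_one, one_mul, inv_one, mul_one, conj_phi_perm, ← map_pow, ← hπ])
      rw [one_mul, inv_one, mul_one] at hc
      rw [hc]
      exact C.moved_sq_le _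
    rw [C.E3_eq f]
    refine ⟨le_of_le_of_eq (key (Equiv.swap 1 2) (by decide)) ?_, le_of_le_of_eq (key (Equiv.swap 0 1) (by decide)) ?_⟩
    · rw [← C.E3_eq]; rfl
    · rw [← C.E3_eq]; rfl
  · rw [E3, dif_neg hinj]
    exact ⟨bot_le, bot_le⟩

theorem reach_le (hr : 9 ≤ r) {m : ℕ} (q : Fin m → Fin r) (ls : List (Equiv.Perm (Fin m))) (t : Fin m × Fin m × Fin m)
    (W : Submodule k V) (ht : C.E3 (q t.1) (q t.2.1) (q t.2.2) ≤ W)
    (hls : ∀ c ∈ ls, ∃ y : C.H, (∀ i, C.perm y (q i) = q (c i)) ∧ W.map (C.el y) ≤ W) :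
    ∀ N, ∀ x ∈ reach ls t N, C.E3 (q x.1) (q x.2.1) (q x.2.2) ≤ W := by
  intro N
  induction N with
  | zero => intro x hx; rw [reach, Finset.mem_singleton] at hx; rwa [hx]
  | succ N ih =>
    suffices h : ∀ l : List (Equiv.Perm (Fin m)), (∀ c ∈ l, c ∈ ls) → ∀ x ∈ l.foldr (fun c S => S ∪
        (reach ls t N).image (fun x => (c x.1, c x.2.1, c x.2.2)))
        (reach ls t N ∪ (reach ls t N).image (fun x => (x.1, x.2.2, x.2.1))),
        C.E3 (q x.1) (q x.2.1) (q x.2.2) ≤ W from h ls fun _ h => h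
    intro l
    induction l with
    | nil =>
      intro _ x hx
      rw [List.foldr_nil, Finset.mem_union, Finset.mem_image] at hx
      rcases hx with hx | ⟨y, hy, rfl⟩
      · exact ih x hx
      · exact le_trans (C.E3_swap hr _ _ _).1 (ih y hy)
    | cons c l ihl =>
      intro hl x hx
      rw [List.foldr_cons, Finset.mem_union] at hx
      rcases hx with hx | hx
      · exact ihl (fun d hd => hl d (List.mem_cons_of_mem _ hd)) x hx
      · obtain ⟨z, hz, rfl⟩ := Finset.mem_image.1 hx
        obtain ⟨y, hy, hyW⟩ := hls c (hl c List.mem_cons_self)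
        have h := ih z hz
        intro v hv
        have h2 : C.el y⁻¹ v ∈ C.E3 (q z.1) (q z.2.1) (q z.2.2) := by
          have := C.E3_map_le hr y⁻¹ _ _ _ ⟨v, hv, rfl⟩
          simpa only [map_inv, ← hy, Equiv.Perm.coe_inv, Equiv.symm_apply_apply] using this
        rw [← C.el_apply_inv y v]
        exact hyW ⟨_, h h2, rfl⟩

theorem map_le_of_moved_le {W : Submodule k V} {y : C.H} (h : C.moved y ≤ W) : W.map (C.el y) ≤ W := by
  rintro _ ⟨v, hv, rfl⟩
  have h1 : (C.el y - 1) v ∈ W := h ⟨v, rfl⟩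
  rw [LinearMap.sub_apply, Module.End.one_apply] at h1
  exact (Submodule.sub_mem_iff_left W hv).1 h1

theorem span_small (hr : 9 ≤ r) {m : ℕ} (q : Fin m → Fin r) (hq : Function.Injective q) (u v : Fin 3 ↪ Fin m)
    (N : ℕ) (hu : u 0 ≠ u 1) (hreach : ∀ a b c : Fin m, a ≠ b → b ≠ c → a ≠ c →
      (a, b, c) ∈ reach [(finRotate 3).viaFintypeEmbedding u, (finRotate 3).viaFintypeEmbedding v] (u 0, u 1, u 2) N)
    (a b c : Fin m) (hab : a ≠ b) (hbc : b ≠ c) (hac : a ≠ c) :
    C.E3 (q a) (q b) (q c) ≤ C.E3 (q (u 0)) (q (u 1)) (q (u 2)) ⊔ C.E3 (q (v 0)) (q (v 1)) (q (v 2)) := by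
  have : Fact (Nat.Prime 3) := ⟨Nat.prime_three⟩
  obtain ⟨Q, hQ⟩ := exists_emb q hq
  have hspec : ∀ w : Fin 3 ↪ Fin m,
      (∀ i, C.perm (C.cyc (w.trans Q)) (q i) = q ((finRotate 3).viaFintypeEmbedding w i)) ∧
      C.moved (C.cyc (w.trans Q)) = C.E3 (q (w 0)) (q (w 1)) (q (w 2)) := by
    intro w
    refine ⟨fun i => ?_, ?_⟩
    · rw [(C.cyc_spec (by decide) (by omega) _).2, ← phi_trans, phi_eq_via w, ← hQ, phi_apply, hQ]
    · rw [← C.E3_eq]
      simp [hQ]
  refine C.reach_le hr q _ (u 0, u 1, u 2) _ le_sup_left (fun d hd => ?_) N (a, b, c) (hreach a b c hab hbc hac)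
  simp only [List.mem_cons, List.not_mem_nil, or_false] at hd
  rcases hd with rfl | rfl
  · exact ⟨_, (hspec u).1, C.map_le_of_moved_le ((hspec u).2 ▸ le_sup_left)⟩
  · exact ⟨_, (hspec v).1, C.map_le_of_moved_le ((hspec v).2 ▸ le_sup_right)⟩

theorem five_injective {a b c d e : Fin r} (h : [a, b, c, d, e].Nodup) : Function.Injective ![a, b, c, d, e] :=
  List.nodup_ofFn.1 (by simpa using h)

theorem four_injective {a b c d : Fin r} (h : [a, b, c, d].Nodup) : Function.Injective ![a, b, c, d] :=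
  List.nodup_ofFn.1 (by simpa using h)

/-- Five points: two triples sharing one point span everything. -/
theorem five_span (hr : 9 ≤ r) {a b c d e : Fin r} (h : [a, b, c, d, e].Nodup) (i j l : Fin 5) (hij : i ≠ j)
    (hjl : j ≠ l) (hil : i ≠ l) :
    C.E3 (![a, b, c, d, e] i) (![a, b, c, d, e] j) (![a, b, c, d, e] l) ≤ C.E3 a b c ⊔ C.E3 c d e :=
  C.span_small hr _ (five_injective h) ⟨![0, 1, 2], by decide⟩ ⟨![2, 3, 4], by decide⟩ 9 (by decide)
    (by
      have e1 : (finRotate 3).viaFintypeEmbedding (⟨![0, 1, 2], by decide⟩ : Fin 3 ↪ Fin 5) =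
          Equiv.swap 0 1 * Equiv.swap 1 2 := by decide
      have e2 : (finRotate 3).viaFintypeEmbedding (⟨![2, 3, 4], by decide⟩ : Fin 3 ↪ Fin 5) =
          Equiv.swap 2 3 * Equiv.swap 3 4 := by decide
      rw [e1, e2]
      exact five_reach) i j l hij hjl hil

/-- Four points: two triples span everything. -/
theorem four_span (hr : 9 ≤ r) {a b c d : Fin r} (h : [a, b, c, d].Nodup) (i j l : Fin 4) (hij : i ≠ j) (hjl : j ≠ l)
    (hil : i ≠ l) :
    C.E3 (![a, b, c, d] i) (![a, b, c, d] j) (![a, b, c, d] l) ≤ C.E3 a b c ⊔ C.E3 a b d :=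
  C.span_small hr _ (four_injective h) ⟨![0, 1, 2], by decide⟩ ⟨![0, 1, 3], by decide⟩ 7 (by decide)
    (by
      have e1 : (finRotate 3).viaFintypeEmbedding (⟨![0, 1, 2], by decide⟩ : Fin 3 ↪ Fin 4) =
          Equiv.swap 0 1 * Equiv.swap 1 2 := by decide
      have e2 : (finRotate 3).viaFintypeEmbedding (⟨![0, 1, 3], by decide⟩ : Fin 3 ↪ Fin 4) =
          Equiv.swap 0 1 * Equiv.swap 1 3 := by decide
      rw [e1, e2]
      exact four_reach) i j l hij hjl hil

theorem exists_avoid (hr : 9 ≤ r) (s : Finset (Fin r)) (hs : s.card ≤ 6) : ∃ x, x ∉ s := by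
  by_contra! h
  rw [Finset.eq_univ_iff_forall.2 h, Finset.card_univ, Fintype.card_fin] at hs
  omega

/-- No small space contains all moved spaces through a pair of points. -/
theorem not_all_pair (hr : 9 ≤ r) (hn : 5 ≤ finrank k V) (W : Submodule k V) (hW : finrank k W ≤ 4) {a b : Fin r}
    (hab : a ≠ b) : ¬ ∀ x, x ≠ a → x ≠ b → C.E3 a b x ≤ W := by
  classical
  have : Fact (Nat.Prime 3) := ⟨Nat.prime_three⟩
  intro hall
  have sw1 := fun x y z => (C.E3_swap hr x y z).1
  have sw2 := fun x y z => (C.E3_swap hr x y z).2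
  have hap : ∀ x y, x ≠ y → x ≠ a → y ≠ a → C.E3 a x y ≤ W := by
    intro x y hxy hxa hya
    by_cases hxb : x = b
    · subst hxb; exact hall y hya (Ne.symm hxy)
    by_cases hyb : y = b
    · subst hyb; exact le_trans (sw1 _ _ _) (hall x hxa hxy)
    exact le_trans (C.four_span hr (a := a) (b := b) (c := x) (d := y)
      (by simp [hab, Ne.symm hxa, Ne.symm hya, Ne.symm hxb, Ne.symm hyb, hxy]) 0 2 3 (by decide) (by decide) (by decide))
      (sup_le (hall x hxa hxb) (hall y hya hyb))
  have hevery : ∀ x y z, C.E3 x y z ≤ W := by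
    intro x y z
    by_cases hinj : Function.Injective ![x, y, z]
    swap
    · rw [E3, dif_neg hinj]; exact bot_le
    have hxy : x ≠ y := fun e => by simpa using hinj (a₁ := 0) (a₂ := 1) (by simpa using e)
    have hyz : y ≠ z := fun e => by simpa using hinj (a₁ := 1) (a₂ := 2) (by simpa using e)
    have hxz : x ≠ z := fun e => by simpa using hinj (a₁ := 0) (a₂ := 2) (by simpa using e)
    by_cases hxa : x = a
    · subst hxa; exact hap y z hyz hxy.symm hxz.symm
    by_cases hya : y = a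
    · subst hya; exact le_trans (sw2 _ _ _) (hap x z hxz hxy hyz.symm)
    by_cases hza : z = a
    · subst hza; exact le_trans (sw1 _ _ _) (le_trans (sw2 _ _ _) (hap x y hxy hxz hyz))
    exact le_trans (C.four_span hr (a := a) (b := x) (c := y) (d := z)
      (by simp [Ne.symm hxa, Ne.symm hya, Ne.symm hza, hxy, hxz, hyz]) 1 2 3 (by decide) (by decide) (by decide))
      (sup_le (hap x y hxy hxa hya) (hap x z hxz hxa hza))
  let U : Submodule k V := ⨆ (x) (y) (z), C.E3 x y z
  have hUW : U ≤ W := iSup_le fun x => iSup_le fun y => iSup_le fun z => hevery x y z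
  have hUinv : ∀ (h : C.H), ∀ w ∈ U, C.el h w ∈ U := by
    intro h w hw
    have hmap : U.map (C.el h) ≤ U := by
      simp only [U, Submodule.map_iSup]
      exact iSup_le fun x => iSup_le fun y => iSup_le fun z => le_trans (C.E3_map_le hr h x y z)
        (le_iSup_of_le _ (le_iSup_of_le _ (le_iSup_of_le _ le_rfl)))
    exact hmap ⟨w, hw, rfl⟩
  obtain ⟨x0, hx0⟩ := exists_avoid hr {a, b} (le_trans Finset.card_le_two (by omega))
  simp only [Finset.mem_insert, Finset.mem_singleton, not_or] at hx0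
  obtain ⟨f, hf⟩ := exists_emb _ (triple_injective (a := a) (b := b) (c := x0) hab (Ne.symm hx0.2) (Ne.symm hx0.1))
  have hne : U ≠ ⊥ := fun hb => C.moved_ne_bot (C.perm_cyc_ne_one hr (ℓ := 3) (by decide) (by omega) f) (by
    rw [← C.E3_eq f, eq_bot_iff, ← hb]
    exact le_iSup_of_le _ (le_iSup_of_le _ (le_iSup_of_le _ le_rfl)))
  have htop := (C.irred U fun h w hw => hUinv h w hw).resolve_left hne
  have := Submodule.finrank_mono hUW
  rw [htop, finrank_top] at this
  omega

set_option maxHeartbeats 3000000 in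
/-- The degree bound from planes of three cycles. -/
theorem degBound_le_of_planes (hr : 9 ≤ r) {p : ℕ} [CharP k p] (hn : 5 ≤ finrank k V)
    (hrank : ∀ f : Fin 3 ↪ Fin r, finrank k (C.moved (C.cyc f)) ≤ 2) : degBound r p ≤ finrank k V := by
  classical
  have : Fact (Nat.Prime 3) := ⟨Nat.prime_three⟩
  have sw1 := fun x y z => (C.E3_swap hr x y z).1
  have sw2 := fun x y z => (C.E3_swap hr x y z).2
  have hE2 : ∀ a b c, finrank k (C.E3 a b c) ≤ 2 := fun a b c => by
    by_cases hinj : Function.Injective ![a, b, c]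
    · rw [E3, dif_pos hinj]; exact hrank _
    · rw [E3, dif_neg hinj, finrank_bot]; omega
  -- three points over a common pair are not in a four space
  have hnot : ∀ a b c d e : Fin r, [a, b, c, d, e].Nodup → ¬ C.E3 a b e ≤ C.E3 a b c ⊔ C.E3 a b d := by
    intro a b c d e hnd hle
    have hab : a ≠ b := by simp at hnd; tauto
    refine C.not_all_pair hr hn (C.E3 a b c ⊔ C.E3 a b d)
      (le_trans (Submodule.finrank_add_le_finrank_add_finrank _ _) (by have := hE2 a b c; have := hE2 a b d; omega))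
      hab fun x hxa hxb => ?_
    by_cases hxc : x = c
    · subst hxc; exact le_sup_left
    by_cases hxd : x = d
    · subst hxd; exact le_sup_right
    obtain ⟨Q, hQ⟩ := exists_emb _ (five_injective hnd)
    obtain ⟨Q', hQ'⟩ := exists_emb _ (five_injective (a := a) (b := b) (c := c) (d := d) (e := x)
      (by simp at hnd ⊢; tauto))
    obtain ⟨σ, hσ, hmap⟩ := exists_even_map Q Q' (by omega)
    obtain ⟨h, hh⟩ := C.exists_perm hσ
    have e0 := hmap 0
    have e1 := hmap 1
    have e2 := hmap 2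
    have e3 := hmap 3
    have e4 := hmap 4
    simp only [hQ, hQ'] at e0 e1 e2 e3 e4
    change σ a = a at e0
    change σ b = b at e1
    change σ c = c at e2
    change σ d = d at e3
    change σ e = x at e4
    intro v hv
    have h2 : C.el h⁻¹ v ∈ C.E3 a b e := by
      have := C.E3_map_le hr h⁻¹ _ _ _ ⟨v, hv, rfl⟩
      rw [map_inv, hh] at this
      rwa [Equiv.Perm.inv_eq_iff_eq.2 e0.symm, Equiv.Perm.inv_eq_iff_eq.2 e1.symm,
        Equiv.Perm.inv_eq_iff_eq.2 e4.symm] at this
    rw [← C.el_apply_inv h v]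
    obtain ⟨v1, hv1, v2, hv2, hv12⟩ := Submodule.mem_sup.1 (hle h2)
    rw [← hv12, map_add]
    refine add_mem (Submodule.mem_sup_left ?_) (Submodule.mem_sup_right ?_)
    · have := C.E3_map_le hr h _ _ _ ⟨v1, hv1, rfl⟩
      rwa [hh, e0, e1, e2] at this
    · have := C.E3_map_le hr h _ _ _ ⟨v2, hv2, rfl⟩
      rwa [hh, e0, e1, e3] at this
  have hextend : ∀ s : Finset (Fin r), s.card ≤ 6 → ∃ x, x ∉ s := exists_avoid hr
  -- dimensions
  have hdims : ∀ a b c d : Fin r, [a, b, c, d].Nodup →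
      finrank k (C.E3 a b c) = 2 ∧ finrank k ↥(C.E3 a b c ⊔ C.E3 a b d) = 3 := by
    intro a b c d hnd
    obtain ⟨e, he⟩ := hextend {a, b, c, d} (le_trans Finset.card_le_four (by omega))
    simp only [Finset.mem_insert, Finset.mem_singleton, not_or] at he
    have hnd5 : [a, b, c, d, e].Nodup := by simp at hnd ⊢; tauto
    have hnd' : [a, b, c, e, d].Nodup := by simp at hnd ⊢; tauto
    have habe : C.E3 a b e ≤ C.E3 a b c ⊔ C.E3 c d e := C.five_span hr hnd5 0 1 4 (by decide) (by decide) (by decide)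
    have habd : C.E3 a b d ≤ C.E3 a b c ⊔ C.E3 c d e := C.five_span hr hnd5 0 1 3 (by decide) (by decide) (by decide)
    have h5 : finrank k ↥(C.E3 a b c ⊔ C.E3 c d e) ≤ finrank k (C.E3 a b c) + finrank k (C.E3 c d e) :=
      Submodule.finrank_add_le_finrank_add_finrank _ _
    have hlt : finrank k ↥(C.E3 a b c ⊔ C.E3 a b d) < finrank k ↥(C.E3 a b c ⊔ C.E3 c d e) :=
      Submodule.finrank_lt_finrank_of_lt (lt_of_le_of_ne (sup_le le_sup_left habd)
        (fun h => hnot a b c d e hnd5 (h ▸ habe)))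
    have hlt2 : finrank k (C.E3 a b c) < finrank k ↥(C.E3 a b c ⊔ C.E3 a b d) :=
      Submodule.finrank_lt_finrank_of_lt (lt_of_le_of_ne le_sup_left fun h => hnot a b c e d hnd'
        (le_trans (le_sup_right.trans h.ge) le_sup_left))
    have heq : finrank k (C.E3 c d e) = finrank k (C.E3 a b c) := by
      simp at hnd5
      obtain ⟨f, hf⟩ := exists_emb _ (triple_injective (a := c) (b := d) (c := e) (by tauto) (by tauto) (by tauto))
      obtain ⟨g, hg⟩ := exists_emb _ (triple_injective (a := a) (b := b) (c := c) (by tauto) (by tauto) (by tauto))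
      have e1 : C.E3 c d e = C.moved (C.cyc f) := by rw [← C.E3_eq f, hf, hf, hf]; rfl
      have e2 : C.E3 a b c = C.moved (C.cyc g) := by rw [← C.E3_eq g, hg, hg, hg]; rfl
      rw [e1, e2]
      exact C.finrank_moved_cyc hr (by decide) (by omega) f g
    have := hE2 a b c
    omega
  have hEsymm : ∀ a b c, C.E3 a b c = C.E3 b a c := fun a b c => le_antisymm (sw2 _ _ _) (sw2 _ _ _)
  have hM : ∀ a b c d : Fin r, [a, b, c, d].Nodup → finrank k ↥(C.E3 a b c ⊓ C.E3 a b d) = 1 := by
    intro a b c d hnd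
    have h1 := hdims a b c d hnd
    have h2 := hdims a b d c (by simp at hnd ⊢; tauto)
    have := Submodule.finrank_sup_add_finrank_inf_eq (C.E3 a b c) (C.E3 a b d)
    omega
  have hMeq : ∀ a b c d e : Fin r, [a, b, c, d, e].Nodup →
      C.E3 a b c ⊓ C.E3 a b e = C.E3 a b d ⊓ C.E3 a b e := by
    intro a b c d e hnd
    have hce := hM a b c e (by simp at hnd ⊢; tauto)
    have hde := hM a b d e (by simp at hnd ⊢; tauto)
    have hT := (hdims a b e c (by simp at hnd ⊢; tauto)).1
    have hX : finrank k ↥((C.E3 a b c ⊔ C.E3 a b d) ⊓ C.E3 a b e) ≤ 1 := by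
      have : (C.E3 a b c ⊔ C.E3 a b d) ⊓ C.E3 a b e < C.E3 a b e :=
        lt_of_le_of_ne inf_le_right fun h => hnot a b c d e hnd (h.ge.trans inf_le_left)
      have := Submodule.finrank_lt_finrank_of_lt this
      omega
    have h1 : C.E3 a b c ⊓ C.E3 a b e = (C.E3 a b c ⊔ C.E3 a b d) ⊓ C.E3 a b e :=
      Submodule.eq_of_le_of_finrank_le (inf_le_inf_right _ le_sup_left) (by omega)
    have h2 : C.E3 a b d ⊓ C.E3 a b e = (C.E3 a b c ⊔ C.E3 a b d) ⊓ C.E3 a b e :=
      Submodule.eq_of_le_of_finrank_le (inf_le_inf_right _ le_sup_right) (by omega)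
    rw [h1, h2]
  let L : Fin r → Fin r → Submodule k V := fun a b => ⨅ (x) (_ : x ≠ a ∧ x ≠ b), C.E3 a b x
  have hLle : ∀ a b x, x ≠ a → x ≠ b → L a b ≤ C.E3 a b x := fun a b x h1 h2 => iInf₂_le x ⟨h1, h2⟩
  have hL : ∀ a b c d, [a, b, c, d].Nodup → L a b = C.E3 a b c ⊓ C.E3 a b d := by
    intro a b c d hnd
    simp at hnd
    refine le_antisymm (le_inf (hLle a b c (by tauto) (by tauto)) (hLle a b d (by tauto) (by tauto))) ?_
    refine le_iInf₂ fun x hx => ?_
    by_cases hxc : x = c
    · subst hxc; exact inf_le_left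
    by_cases hxd : x = d
    · subst hxd; exact inf_le_right
    rw [hMeq a b c x d (by simp; tauto)]
    exact inf_le_left
  have hfree4 : ∀ a b : Fin r, a ≠ b → ∃ c d, [a, b, c, d].Nodup := fun a b hab => by
    obtain ⟨c, hc⟩ := hextend {a, b} (le_trans Finset.card_le_two (by omega))
    obtain ⟨d, hd⟩ := hextend {a, b, c} (le_trans Finset.card_le_three (by omega))
    simp only [Finset.mem_insert, Finset.mem_singleton, not_or] at hc hd
    exact ⟨c, d, by simp; tauto⟩
  have hdim : ∀ a b, a ≠ b → finrank k (L a b) = 1 := fun a b hab => by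
    obtain ⟨c, d, hnd⟩ := hfree4 a b hab
    rw [hL a b c d hnd]
    exact hM a b c d hnd
  have hsymm : ∀ a b, L a b = L b a := fun a b => by
    simp only [L, hEsymm a b, and_comm]
  have hin : ∀ i j l, i ≠ j → j ≠ l → i ≠ l → L i j ≤ C.E3 i j l ∧ L j l ≤ C.E3 i j l ∧ L i l ≤ C.E3 i j l := by
    intro i j l hij hjl hil
    refine ⟨hLle i j l hil.symm hjl.symm, ?_, ?_⟩
    · exact le_trans (hLle j l i hij hil) (le_trans (sw1 _ _ _) (sw2 _ _ _))
    · exact le_trans (hLle i l j hij.symm hjl) (sw1 _ _ _)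
  have hdist : ∀ i j l, i ≠ j → j ≠ l → i ≠ l → L i j ≠ L j l := by
    intro i j l hij hjl hil heq
    obtain ⟨x, hx⟩ := hextend {i, j, l} (le_trans Finset.card_le_three (by omega))
    obtain ⟨y, hy⟩ := hextend {i, j, l, x} (le_trans Finset.card_le_four (by omega))
    simp only [Finset.mem_insert, Finset.mem_singleton, not_or] at hx hy
    -- the five points are `i, x, j, l, y`
    have hnd : [i, x, j, l, y].Nodup := by simp; tauto
    have hsum : finrank k ↥(C.E3 i x j ⊔ C.E3 j l y) = 4 := by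
      have h1 := (hdims i x j l (by simp; tauto))
      have h4 : C.E3 i x l ≤ C.E3 i x j ⊔ C.E3 j l y := C.five_span hr hnd 0 1 3 (by decide) (by decide) (by decide)
      have hy' : C.E3 i x y ≤ C.E3 i x j ⊔ C.E3 j l y := C.five_span hr hnd 0 1 4 (by decide) (by decide) (by decide)
      have hlt := Submodule.finrank_lt_finrank_of_lt (lt_of_le_of_ne (sup_le le_sup_left h4)
        (fun h => hnot i x j l y hnd (h ▸ hy')))
      have := hE2 i x j
      have := hE2 j l y
      have := Submodule.finrank_add_le_finrank_add_finrank (C.E3 i x j) (C.E3 j l y)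
      omega
    have hinf := Submodule.finrank_sup_add_finrank_inf_eq (C.E3 i x j) (C.E3 j l y)
    have hle : L i j ≤ C.E3 i x j ⊓ C.E3 j l y :=
      le_inf (le_trans (hLle i j x hx.1 hx.2.1) (sw1 _ _ _)) (heq ▸ hLle j l y hy.2.1 hy.2.2.1)
    have := Submodule.finrank_mono hle
    have := hdim i j hij
    have := hE2 i x j
    have := hE2 j l y
    omega
  have hspan : ∀ i j l, i ≠ j → j ≠ l → i ≠ l → L i j ⊔ L j l = C.E3 i j l := by
    intro i j l hij hjl hil
    obtain ⟨h1, h2, -⟩ := hin i j l hij hjl hil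
    refine Submodule.eq_of_le_of_finrank_le (sup_le h1 h2) ?_
    have hlt := Submodule.finrank_lt_finrank_of_lt (show L i j < L i j ⊔ L j l from
      lt_of_le_of_ne le_sup_left fun h => hdist i j l hij hjl hil (Submodule.eq_of_le_of_finrank_le
        (h ▸ le_sup_right) (by rw [hdim i j hij, hdim j l hjl])).symm)
    have := hdim i j hij
    have := hE2 i j l
    omega
  refine bound_of_lines (p := p) (by omega) L hsymm hdim (fun i j l hij hjl hil => ?_) hdist
    (fun i j l m hij hil him hjl hjm hlm hle => ?_) fun σ hσ => ?_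
  · rw [hspan i j l hij hjl hil]
    exact (hin i j l hij hjl hil).2.2
  · have h1 : L i m ≤ C.E3 i j l := hle.trans (sup_le (hin i j l hij hjl hil).1 (hin i j l hij hjl hil).2.2)
    have h2 : L i m ≤ C.E3 i j m := (hin i j m hij hjm him).2.2
    have h3 : L i m ≤ L i j := (le_inf h1 h2).trans (hL i j l m (by simp; tauto)).ge
    have h4 := Submodule.eq_of_le_of_finrank_le h3 (by rw [hdim i j hij, hdim i m him])
    exact hdist m i j him.symm hij hjm.symm (by rw [hsymm m i]; exact h4)
  · obtain ⟨h, hh⟩ := C.exists_perm hσ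
    refine ⟨C.el h, (C.el_bijective h).1, fun i j hij v hv => ?_⟩
    refine Submodule.mem_iInf _ |>.2 fun x => Submodule.mem_iInf _ |>.2 fun hx => ?_
    have h1 : v ∈ C.E3 i j (σ⁻¹ x) := hLle i j _ (fun e => hx.1 (by rw [← e, Equiv.Perm.coe_inv, Equiv.apply_symm_apply]))
      (fun e => hx.2 (by rw [← e, Equiv.Perm.coe_inv, Equiv.apply_symm_apply])) hv
    have := C.E3_map_le hr h _ _ _ ⟨v, h1, rfl⟩
    rwa [hh, Equiv.Perm.coe_inv, Equiv.apply_symm_apply] at this

end Cover

/-- The degree bound for sections of linear groups. -/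
theorem sectionBound_all : ∀ r, 9 ≤ r → SectionBound r := by
  intro r
  induction r using Nat.strong_induction_on with
  | _ r ih =>
    intro hr
    refine sectionBound_of_cover hr fun p hp k _ _ _ V _ _ _ C => ?_
    by_contra hlt
    push Not at hlt
    have : Fact p.Prime := ⟨hp⟩
    rcases subsingleton_or_nontrivial V with hV | hV
    · obtain ⟨a, b, hab⟩ := exists_not_commute (five_le_of_nine hr)
      obtain ⟨x, rfl⟩ := C.surj a
      have hx1 : x = 1 := Subtype.ext (Units.ext (LinearMap.ext fun v => Subsingleton.elim _ _))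
      rw [hx1, map_one] at hab
      simp at hab
    obtain ⟨h5, hrank⟩ := C.rank_three hr (p := p) (fun m hm hmr => ih m hmr hm) hlt
    have := C.degBound_le_of_planes hr (p := p) h5 hrank
    omega

end CfsgLib.Classes.AltSections
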